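/-
Finite rational linear groups of degree 23: definitions and the statements of the steps.
-/
import Cfsg.Agent.Base
import Cfsg.Prelude.Def_Spor_Conway

set_option autoImplicit false

open Module

namespace CL.F23

universe u

/-- `q` is an integer. -/
def IsInt (q : ℚ) : Prop := ∃ n : ℤ, q = n

/-- `q` is an even integer. -/
def IsEv (q : ℚ) : Prop := ∃ n : ℤ, q = 2 * n

theorem IsInt.cast (n : ℤ) : IsInt n := ⟨n, rfl⟩
theorem IsInt.nat (n : ℕ) : IsInt n := ⟨n, by simp⟩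
theorem IsInt.zero : IsInt 0 := ⟨0, by simp⟩
theorem IsInt.one : IsInt 1 := ⟨1, by simp⟩
theorem IsInt.add {a b : ℚ} : IsInt a → IsInt b → IsInt (a + b) := fun ⟨m, h⟩ ⟨n, k⟩ => ⟨m + n, by simp [h, k]⟩
theorem IsInt.neg {a : ℚ} : IsInt a → IsInt (-a) := fun ⟨m, h⟩ => ⟨-m, by simp [h]⟩
theorem IsInt.sub {a b : ℚ} : IsInt a → IsInt b → IsInt (a - b) := fun ⟨m, h⟩ ⟨n, k⟩ => ⟨m - n, by simp [h, k]⟩
theorem IsInt.mul {a b : ℚ} : IsInt a → IsInt b → IsInt (a * b) := fun ⟨m, h⟩ ⟨n, k⟩ => ⟨m * n, by simp [h, k]⟩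
theorem IsInt.sum {ι : Type*} {s : Finset ι} {f : ι → ℚ} (h : ∀ i ∈ s, IsInt (f i)) : IsInt (∑ i ∈ s, f i) :=
  Finset.sum_induction f IsInt (fun _ _ => IsInt.add) IsInt.zero h
theorem IsEv.isInt {a : ℚ} : IsEv a → IsInt a := fun ⟨m, h⟩ => ⟨2 * m, by simp [h]⟩

section lat

variable {W : Type} [AddCommGroup W] [Module ℚ W]

theorem IsInt.smul_mem {c : ℚ} (hc : IsInt c) {L : AddSubgroup W} {x : W} (hx : x ∈ L) : c • x ∈ L := by
  obtain ⟨n, rfl⟩ := hc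
  rw [Int.cast_smul_eq_zsmul]
  exact L.zsmul_mem hx n

/-- A positive definite symmetric form. -/
structure PD (γ : LinearMap.BilinForm ℚ W) : Prop where
  symm : ∀ x y, γ x y = γ y x
  pos : ∀ x, x ≠ 0 → 0 < γ x x

/-- A full lattice. -/
structure Lat (L : AddSubgroup W) : Prop where
  fg : L.FG
  full : ∀ v : W, ∃ n : ℕ, 0 < n ∧ (n : ℚ) • v ∈ L

/-- The dual lattice. -/
def dual (γ : LinearMap.BilinForm ℚ W) (L : AddSubgroup W) : AddSubgroup W where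
  carrier := {y | ∀ x ∈ L, IsInt (γ y x)}
  zero_mem' := fun x _ => by simpa using IsInt.zero
  add_mem' := fun ha hb x hx => by simpa using (ha x hx).add (hb x hx)
  neg_mem' := fun ha x hx => by simpa using (ha x hx).neg

theorem mem_dual {γ : LinearMap.BilinForm ℚ W} {L : AddSubgroup W} {y : W} :
    y ∈ dual γ L ↔ ∀ x ∈ L, IsInt (γ y x) := Iff.rfl

/-- The discriminant `|L* : L|`. -/
noncomputable def disc (γ : LinearMap.BilinForm ℚ W) (L : AddSubgroup W) : ℕ := L.relIndex (dual γ L)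

/-- The vectors `y` with `q y ∈ L`. -/
def divq (q : ℕ) (L : AddSubgroup W) : AddSubgroup W where
  carrier := {y | (q : ℚ) • y ∈ L}
  zero_mem' := by simp
  add_mem' := fun ha hb => by simpa using L.add_mem ha hb
  neg_mem' := fun ha => by simpa using L.neg_mem ha

theorem mem_divq {q : ℕ} {L : AddSubgroup W} {y : W} : y ∈ divq q L ↔ (q : ℚ) • y ∈ L := Iff.rfl

/-- An even lattice without vectors of norm 2. -/
structure EvR (γ : LinearMap.BilinForm ℚ W) (L : AddSubgroup W) : Prop where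
  ev : ∀ x ∈ L, IsEv (γ x x)
  rootless : ∀ x ∈ L, γ x x ≠ 2

end lat

variable {G : Type u} [Group G] {V : Type} [AddCommGroup V] [Module ℚ V]

/-- A faithful irreducible representation of degree 23 in which every orbit on lines has more than 24 members. -/
structure Rep (ρ : G →* Module.End ℚ V) : Prop where
  dim : finrank ℚ V = 23
  inj : Function.Injective ρ
  irr : ∀ U : Submodule ℚ V, (∀ g, ∀ w ∈ U, ρ g w ∈ U) → U = ⊥ ∨ U = ⊤
  big : ∀ y : V, y ≠ 0 → 48 < Set.ncard {z | ∃ g, z = ρ g y ∨ z = -ρ g y}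

/-- An invariant form and an invariant integral lattice. -/
structure Inv (ρ : G →* Module.End ℚ V) (β : LinearMap.BilinForm ℚ V) (L : AddSubgroup V) : Prop
    extends PD β, Lat L where
  inv : ∀ g x y, β (ρ g x) (ρ g y) = β x y
  stab : ∀ g, ∀ x ∈ L, ρ g x ∈ L
  int : ∀ x ∈ L, ∀ y ∈ L, IsInt (β x y)

/-- The consequences of absolute irreducibility; `σ` has order 23. -/
structure Avg [Fintype G] (ρ : G →* Module.End ℚ V) (σ : G) : Prop where
  avg : ∀ T : Module.End ℚ V,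
    ∑ g, ρ g * T * ρ g⁻¹ = ((Fintype.card G : ℚ) / 23 * LinearMap.trace ℚ V T) • (1 : Module.End ℚ V)
  ord : orderOf σ = 23
  nsq : ¬ 23 ^ 2 ∣ Fintype.card G
  prm : ∀ q : ℕ, q.Prime → q ∣ Fintype.card G → q ≤ 23
  line : ∃ u : V, u ≠ 0 ∧ ρ σ u = u ∧ ∀ v, ρ σ v = v → ∃ c : ℚ, v = c • u

/-- The two properties of a lattice of least discriminant. -/
structure Mn (β : LinearMap.BilinForm ℚ V) (L : AddSubgroup V) : Prop where
  sqf : ∀ q : ℕ, q.Prime → ∀ y ∈ dual β L, ((q : ℚ) ^ 2) • y ∈ L → (q : ℚ) • y ∈ L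
  rk : ∀ q : ℕ, q.Prime → L.relIndex (dual β L ⊓ divq q L) ≤ q ^ 11

/-- `L*/L` has squarefree exponent prime to 23 and is centralized by `σ`. -/
structure Tr (ρ : G →* Module.End ℚ V) (β : LinearMap.BilinForm ℚ V) (σ : G) (L : AddSubgroup V) (e : ℕ) : Prop where
  sqf : Squarefree e
  cop : ¬ 23 ∣ e
  exp : ∀ y ∈ dual β L, (e : ℚ) • y ∈ L
  triv : ∀ y ∈ dual β L, ρ σ y - y ∈ L

/-- `L*/L` is cyclic of order `d`, generated by a vector `u` of norm `23/d` spanning the fixed line of `σ`. -/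
structure Sh (ρ : G →* Module.End ℚ V) (β : LinearMap.BilinForm ℚ V) (σ : G) (L : AddSubgroup V) (u : V) (d : ℕ) :
    Prop extends Rep ρ, Inv ρ β L where
  ord : orderOf σ = 23
  fix : ρ σ u = u
  line : ∀ v, ρ σ v = v → ∃ c : ℚ, v = c • u
  mem_dual : ∀ y, y ∈ dual β L ↔ ∃ j : ℤ, y - (j : ℚ) • u ∈ L
  ordu : ∀ j : ℤ, (j : ℚ) • u ∈ L ↔ (d : ℤ) ∣ j
  one : ∃ l ∈ L, β l u = 1
  dpos : 0 < d
  norm : β u u = 23 / d

/-- The form `β ⊥ ⟨D⟩` on `V × ℚ`. -/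
def gform (β : LinearMap.BilinForm ℚ V) (D : ℕ) : LinearMap.BilinForm ℚ (V × ℚ) :=
  LinearMap.mk₂ ℚ (fun p q => β p.1 q.1 + D * p.2 * q.2) (fun _ _ _ => by simp; ring) (fun _ _ _ => by simp; ring)
    (fun _ _ _ => by simp; ring) (fun _ _ _ => by simp; ring)

@[simp] theorem gform_apply (β : LinearMap.BilinForm ℚ V) (D : ℕ) (p q : V × ℚ) :
    gform β D p q = β p.1 q.1 + D * p.2 * q.2 := rfl

/-- The lattice `L + ℤ (u, 1/D)` in `V × ℚ`. -/
def glue (L : AddSubgroup V) (u : V) (D : ℕ) : AddSubgroup (V × ℚ) where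
  carrier := {p | ∃ j : ℤ, p.1 - (j : ℚ) • u ∈ L ∧ p.2 = j / D}
  zero_mem' := ⟨0, by simp, by simp⟩
  add_mem' := fun {a b} ⟨i, h1, h2⟩ ⟨j, k1, k2⟩ => ⟨i + j, by
    convert L.add_mem h1 k1 using 1; simp [add_smul]; abel, by simp [h2, k2, add_div]⟩
  neg_mem' := fun {a} ⟨i, h1, h2⟩ => ⟨-i, by convert L.neg_mem h1 using 1; simp; abel, by simp [h2, neg_div]⟩

theorem mem_glue {L : AddSubgroup V} {u : V} {D : ℕ} {p : V × ℚ} :
    p ∈ glue L u D ↔ ∃ j : ℤ, p.1 - (j : ℚ) • u ∈ L ∧ p.2 = j / D := Iff.rfl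

/-- The conclusion. -/
def Concl (G : Type u) [Group G] : Prop :=
  (∃ f : G →* Multiplicative (ZMod 2) × Cfsg.Spor.Co2, Function.Injective f) ∨
    (∃ f : G →* Multiplicative (ZMod 2) × Cfsg.Spor.Co3, Function.Injective f)

def SchurThm : Prop := ∀ (G : Type u) [Group G] [Fintype G] (V : Type) [AddCommGroup V] [Module ℚ V]
  (ρ : G →* Module.End ℚ V) (β : LinearMap.BilinForm ℚ V) (L : AddSubgroup V), Rep ρ → Inv ρ β L → ∃ σ, Avg ρ σ

def MinThm : Prop := ∀ (G : Type u) [Group G] [Fintype G] (V : Type) [AddCommGroup V] [Module ℚ V]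
  (ρ : G →* Module.End ℚ V), Rep ρ → ∃ β L, Inv ρ β L ∧ Mn β L

def TrThm : Prop := ∀ (G : Type u) [Group G] [Fintype G] (V : Type) [AddCommGroup V] [Module ℚ V]
  (ρ : G →* Module.End ℚ V) (β : LinearMap.BilinForm ℚ V) (σ : G) (L : AddSubgroup V),
  Rep ρ → Avg ρ σ → Inv ρ β L → Mn β L → ∃ e, Tr ρ β σ L e

def ShapeThm : Prop := ∀ (G : Type u) [Group G] [Fintype G] (V : Type) [AddCommGroup V] [Module ℚ V]
  (ρ : G →* Module.End ℚ V) (β : LinearMap.BilinForm ℚ V) (σ : G) (L : AddSubgroup V) (e : ℕ),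
  Rep ρ → Avg ρ σ → Inv ρ β L → Tr ρ β σ L e → ∃ u d, Sh ρ β σ L u d ∧ Squarefree d

def QRThm : Prop := ∀ (G : Type u) [Group G] (V : Type) [AddCommGroup V] [Module ℚ V]
  (ρ : G →* Module.End ℚ V) (β : LinearMap.BilinForm ℚ V) (σ : G) (L : AddSubgroup V) (u : V) (d : ℕ),
  Sh ρ β σ L u d → (d : ZMod 23) ^ 11 = 1

def RootThm : Prop := ∀ (G : Type u) [Group G] [Finite G] (V : Type) [AddCommGroup V] [Module ℚ V]
  (ρ : G →* Module.End ℚ V) (β : LinearMap.BilinForm ℚ V) (L : AddSubgroup V),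
  Rep ρ → Inv ρ β L → ∀ x ∈ L, β x x ≠ 2

def EvThm : Prop := ∀ (G : Type u) [Group G] [Finite G] (V : Type) [AddCommGroup V] [Module ℚ V]
  (ρ : G →* Module.End ℚ V) (β : LinearMap.BilinForm ℚ V) (σ : G) (L : AddSubgroup V) (u : V) (d : ℕ),
  Sh ρ β σ L u d → Squarefree d → (d : ZMod 23) ^ 11 = 1 → (∀ x ∈ L, β x x ≠ 2) →
    ∃ E v D, Sh ρ β σ E v D ∧ EvR β E ∧ (D = 2 ∨ D = 4 ∨ D = 6)

def LeechThm : Prop := ∀ (W : Type) [AddCommGroup W] [Module ℚ W] (γ : LinearMap.BilinForm ℚ W) (Λ : AddSubgroup W),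
  finrank ℚ W = 24 → PD γ → Lat Λ → dual γ Λ = Λ → EvR γ Λ →
    ∃ f : Λ ≃+ Cfsg.leechLattice, ∀ x y : Λ,
      (Cfsg.dotInt ((f x : Cfsg.leechLattice) : Cfsg.GolayPt → ℤ) ((f y : Cfsg.leechLattice) : Cfsg.GolayPt → ℤ) : ℚ) =
        8 * γ x y

def EmbThm : Prop := ∀ (G : Type u) [Group G] (V : Type) [AddCommGroup V] [Module ℚ V]
  (ρ : G →* Module.End ℚ V) (β : LinearMap.BilinForm ℚ V) (σ : G) (L : AddSubgroup V) (u : V) (d : ℕ),
  Sh ρ β σ L u d → EvR β L → d = 4 ∨ d = 6 → Concl G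

def TwoThm : Prop := ∀ (G : Type u) [Group G] (V : Type) [AddCommGroup V] [Module ℚ V]
  (ρ : G →* Module.End ℚ V) (β : LinearMap.BilinForm ℚ V) (σ : G) (L : AddSubgroup V) (u : V),
  Sh ρ β σ L u 2 → ¬ EvR β L

end CL.F23
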