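/-
Tools: bases of lattices, duals, discriminants; the averaging map of `σ`; the glued lattice.
-/
import Cfsg.Agent.Lat.F0

set_option autoImplicit false

open Module

namespace CL.F23

universe u

section lat

variable {W : Type} [AddCommGroup W] [Module ℚ W] {γ : LinearMap.BilinForm ℚ W} {L : AddSubgroup W}

theorem PD.nonneg (h : PD γ) (x : W) : 0 ≤ γ x x := by
  by_cases hx : x = 0
  · simp [hx]
  · exact (h.pos x hx).le

theorem PD.eq_zero (h : PD γ) {x : W} (hx : γ x x = 0) : x = 0 := by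
  by_contra h0
  exact (h.pos x h0).ne' hx

theorem PD.norm_add (h : PD γ) (x y : W) : γ (x + y) (x + y) = γ x x + 2 * γ x y + γ y y := by
  simp only [map_add, LinearMap.add_apply, h.symm y x]; ring

theorem PD.norm_sub (h : PD γ) (x y : W) : γ (x - y) (x - y) = γ x x - 2 * γ x y + γ y y := by
  simp only [map_sub, LinearMap.sub_apply, h.symm y x]; ring

theorem PD.nondeg (h : PD γ) : γ.Nondegenerate := ⟨fun x hx => h.eq_zero (hx x), fun x hx => h.eq_zero (hx x)⟩

theorem PD.smul (h : PD γ) {c : ℚ} (hc : 0 < c) : PD (c • γ) :=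
  ⟨fun x y => by simp [h.symm x y], fun x hx => by simpa using mul_pos hc (h.pos x hx)⟩

/-- `b` is a `ℤ`-basis of `L`. -/
def IsB {ι : Type} (b : Basis ι ℚ W) (L : AddSubgroup W) : Prop := ∀ x, x ∈ L ↔ ∀ i, IsInt (b.repr x i)

theorem Lat.span (h : Lat L) : Submodule.span ℚ (L : Set W) = ⊤ := by
  refine eq_top_iff.2 fun v _ => ?_
  obtain ⟨n, hn, hv⟩ := h.full v
  have : (n : ℚ) ≠ 0 := by positivity
  rw [show v = (n : ℚ)⁻¹ • ((n : ℚ) • v) by rw [smul_smul, inv_mul_cancel₀ this, one_smul]]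
  exact Submodule.smul_mem _ _ (Submodule.subset_span hv)

theorem Lat.exists_basis (h : Lat L) {n : ℕ} [FiniteDimensional ℚ W] (hn : finrank ℚ W = n) :
    ∃ b : Basis (Fin n) ℚ W, IsB b L := by
  let M := AddSubgroup.toIntSubmodule L
  haveI : M.IsLattice ℚ := ⟨(Submodule.fg_iff_addSubgroup_fg M).2 h.fg, h.span⟩
  let c := Module.Free.chooseBasis ℤ M
  let c' := c.extendOfIsLattice ℚ
  let e : Module.Free.ChooseBasisIndex ℤ M ≃ Fin n :=
    Fintype.equivFinOfCardEq (by rw [← hn, finrank_eq_card_basis c'])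
  have key : IsB c' L := fun x => by
    constructor
    · intro hx i
      have h1 : x = ∑ j, ((c.repr ⟨x, hx⟩ j : ℤ) : ℚ) • c' j := by
        have := congrArg Subtype.val (c.sum_repr ⟨x, hx⟩)
        simp only [AddSubmonoidClass.coe_finsetSum, SetLike.val_smul] at this
        simp only [c', Basis.extendOfIsLattice_apply, Int.cast_smul_eq_zsmul]
        exact this.symm
      refine ⟨c.repr ⟨x, hx⟩ i, ?_⟩
      conv_lhs => rw [h1]
      rw [c'.repr_sum_self]
    · intro hx
      rw [← c'.sum_repr x]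
      exact L.sum_mem fun i _ => (hx i).smul_mem (by simp only [c', Basis.extendOfIsLattice_apply]; exact (c i).2)
  exact ⟨c'.reindex e, fun x => (key x).trans ⟨fun H i => by simpa using H (e.symm i), fun H i => by simpa using H (e i)⟩⟩

section basis

variable {ι : Type} [Fintype ι] [DecidableEq ι] {b : Basis ι ℚ W}

omit [Fintype ι] in
theorem IsB.mem (h : IsB b L) (i : ι) : b i ∈ L := (h _).2 fun j => by
  rw [b.repr_self, Finsupp.single_apply]
  split_ifs
  exacts [IsInt.one, IsInt.zero]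

theorem IsB.eq_closure (h : IsB b L) : L = AddSubgroup.closure (Set.range b) := by
  refine le_antisymm (fun x hx => ?_) ((AddSubgroup.closure_le _).2 (by rintro _ ⟨i, rfl⟩; exact h.mem i))
  rw [← b.sum_repr x]
  exact AddSubgroup.sum_mem _ fun i _ => ((h x).1 hx i).smul_mem (AddSubgroup.subset_closure ⟨i, rfl⟩)

omit [DecidableEq ι] in
theorem isB_closure (b : Basis ι ℚ W) : IsB b (AddSubgroup.closure (Set.range b)) := fun x => by
  classical
  constructor
  · intro hx i
    induction hx using AddSubgroup.closure_induction with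
    | mem x hx =>
      obtain ⟨j, rfl⟩ := hx
      rw [b.repr_self, Finsupp.single_apply]
      split_ifs
      exacts [IsInt.one, IsInt.zero]
    | zero => simpa using IsInt.zero
    | add x y _ _ hx hy => simpa using hx.add hy
    | neg x _ hx => simpa using hx.neg
  · intro hx
    rw [← b.sum_repr x]
    exact AddSubgroup.sum_mem _ fun i _ => (hx i).smul_mem (AddSubgroup.subset_closure ⟨i, rfl⟩)

theorem IsB.lat (h : IsB b L) : Lat L := by
  refine ⟨?_, fun v => ⟨∏ i, (b.repr v i).den, Finset.prod_pos fun i _ => (b.repr v i).den_pos, (h _).2 fun i => ?_⟩⟩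
  · rw [h.eq_closure]
    exact (AddSubgroup.fg_iff _).2 ⟨_, rfl, Set.finite_range b⟩
  · rw [map_smul, Finsupp.smul_apply, smul_eq_mul, ← Finset.mul_prod_erase _ _ (Finset.mem_univ i), Nat.cast_mul,
      mul_right_comm, Rat.den_mul_eq_num]
    exact (IsInt.cast _).mul (IsInt.nat _)

theorem IsB.mem_dual (h : IsB b L) {y : W} : y ∈ dual γ L ↔ ∀ i, IsInt (γ y (b i)) := by
  refine ⟨fun H i => H _ (h.mem i), fun H x hx => ?_⟩
  rw [← b.sum_repr x, map_sum]
  exact IsInt.sum fun i _ => by rw [map_smul, smul_eq_mul]; exact ((h x).1 hx i).mul (H i)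

theorem IsB.dual (h : IsB b L) (hγ : PD γ) : IsB (γ.dualBasis hγ.nondeg b) (dual γ L) := fun y => by
  rw [h.mem_dual]
  simp only [LinearMap.BilinForm.dualBasis_repr_apply]

theorem IsB.relIndex {L' : AddSubgroup W} {b' : Basis ι ℚ W} (h : IsB b L) (h' : IsB b' L') (hle : L' ≤ L) :
    (L'.relIndex L : ℚ) = |b.det b'| :=
  AddSubgroup.relIndex_eq_abs_det L' L hle b' b h'.eq_closure h.eq_closure

/-- The discriminant is the determinant of the Gram matrix. -/
theorem IsB.disc (h : IsB b L) (hγ : PD γ) (hi : ∀ x ∈ L, ∀ y ∈ L, IsInt (γ x y)) :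
    (disc γ L : ℚ) = |(Matrix.of fun i j => γ (b i) (b j)).det| := by
  rw [F23.disc, (h.dual hγ).relIndex h fun x hx => hi x hx, Basis.det_apply]
  congr 2
  ext i j
  rw [Basis.toMatrix_apply, LinearMap.BilinForm.dualBasis_repr_apply, Matrix.of_apply, hγ.symm]

omit [DecidableEq ι] in
/-- Gram matrix of a family in terms of the Gram matrix of a basis. -/
theorem gram_eq (b : Basis ι ℚ W) (e : ι → W) : (Matrix.of fun i j => γ (e i) (e j)) =
    (b.toMatrix e).transpose * (Matrix.of fun i j => γ (b i) (b j)) * b.toMatrix e := by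
  ext i j
  conv_lhs => rw [Matrix.of_apply, ← b.sum_repr (e i), ← b.sum_repr (e j)]
  simp only [map_sum, map_smul, LinearMap.sum_apply, LinearMap.smul_apply, smul_eq_mul, Matrix.mul_apply,
    Matrix.transpose_apply, Basis.toMatrix_apply, Matrix.of_apply, Finset.sum_mul, Finset.mul_sum]
  exact Finset.sum_congr rfl fun _ _ => Finset.sum_congr rfl fun _ _ => by ring

theorem det_gram (b : Basis ι ℚ W) (e : ι → W) : (Matrix.of fun i j => γ (e i) (e j)).det =
    b.det e ^ 2 * (Matrix.of fun i j => γ (b i) (b j)).det := by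
  rw [gram_eq b e, Matrix.det_mul, Matrix.det_mul, Matrix.det_transpose, Basis.det_apply]; ring

end basis

variable [FiniteDimensional ℚ W]

theorem Lat.dual (h : Lat L) (hγ : PD γ) : Lat (dual γ L) := by
  obtain ⟨b, hb⟩ := h.exists_basis rfl
  exact (hb.dual hγ).lat

theorem Lat.dual_dual (h : Lat L) (hγ : PD γ) : F23.dual γ (F23.dual γ L) = L := by
  obtain ⟨b, hb⟩ := h.exists_basis rfl
  have := (hb.dual hγ).dual hγ
  rw [LinearMap.BilinForm.dualBasis_dualBasis _ ⟨hγ.symm⟩] at this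
  ext x
  rw [this x, hb x]

theorem Lat.relIndex_ne_zero {L' : AddSubgroup W} (h : Lat L) (h' : Lat L') (hle : L' ≤ L) : L'.relIndex L ≠ 0 := by
  obtain ⟨b, hb⟩ := h.exists_basis rfl
  obtain ⟨b', hb'⟩ := h'.exists_basis rfl
  have := hb.relIndex hb' hle
  intro h0
  rw [h0, Nat.cast_zero, eq_comm, abs_eq_zero] at this
  exact (b.isUnit_det b').ne_zero this

omit [FiniteDimensional ℚ W] [Module ℚ W] in
theorem fg_of_le {L' : AddSubgroup W} (h : L.FG) (hle : L' ≤ L) : L'.FG :=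
  (Submodule.fg_iff_addSubgroup_fg (AddSubgroup.toIntSubmodule L')).1
    (Submodule.FG.of_le ((Submodule.fg_iff_addSubgroup_fg (AddSubgroup.toIntSubmodule L)).2 h) hle)

omit [FiniteDimensional ℚ W] in
/-- A subgroup between `n L` and a lattice is a lattice. -/
theorem Lat.of_le {L' M : AddSubgroup W} (h : Lat L) (hM : Lat M) (hle : L' ≤ M) {n : ℕ} (hn : 0 < n)
    (hL : ∀ x ∈ L, (n : ℚ) • x ∈ L') : Lat L' :=
  ⟨fg_of_le hM.fg hle, fun v => by
    obtain ⟨m, hm, hv⟩ := h.full v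
    exact ⟨n * m, Nat.mul_pos hn hm, by rw [Nat.cast_mul, mul_smul]; exact hL _ hv⟩⟩

/-- Discriminant of a sublattice, for a rescaled form. -/
theorem disc_of_le {L' : AddSubgroup W} (h : Lat L) (h' : Lat L') (hle : L' ≤ L) (hγ : PD γ) {c : ℚ} (hc : 0 < c)
    (hi : ∀ x ∈ L, ∀ y ∈ L, IsInt (γ x y)) (hi' : ∀ x ∈ L', ∀ y ∈ L', IsInt ((c • γ) x y)) :
    (disc (c • γ) L' : ℚ) = c ^ finrank ℚ W * (L'.relIndex L : ℚ) ^ 2 * disc γ L := by
  obtain ⟨b, hb⟩ := h.exists_basis rfl
  obtain ⟨b', hb'⟩ := h'.exists_basis rfl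
  rw [hb.disc hγ hi, hb'.disc (hγ.smul hc) hi', hb.relIndex hb' hle, sq_abs,
    show (Matrix.of fun i j => (c • γ) (b' i) (b' j)) = c • Matrix.of fun i j => γ (b' i) (b' j) from rfl,
    Matrix.det_smul, det_gram b b', Fintype.card_fin, abs_mul, abs_mul, abs_of_pos (pow_pos hc _), abs_sq, mul_assoc]

/-- The index of `L` in `q⁻¹ L`. -/
theorem Lat.relIndex_divq (h : Lat L) {q : ℕ} (hq : 0 < q) : L.relIndex (divq q L) = q ^ finrank ℚ W := by
  obtain ⟨b, hb⟩ := h.exists_basis rfl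
  have hq' : (q : ℚ) ≠ 0 := by positivity
  let b' := b.unitsSMul fun _ => (Units.mk0 _ hq')⁻¹
  have hb' : IsB b' (divq q L) := fun x => by
    rw [mem_divq, hb]
    simp [b', Basis.repr_unitsSMul, Units.smul_def]
  have := hb'.relIndex hb fun x hx => (IsInt.nat q).smul_mem hx
  have e : b'.toMatrix b = (q : ℚ) • (1 : Matrix _ _ ℚ) := by
    ext i j
    simp [b', Basis.toMatrix_apply, Basis.repr_unitsSMul, Units.smul_def, Matrix.one_apply, Finsupp.single_apply, eq_comm]
  rw [Basis.det_apply, e, Matrix.det_smul, Matrix.det_one, mul_one, Fintype.card_fin, abs_of_pos (by positivity)] at this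
  exact_mod_cast this

end lat

variable {G : Type u} [Group G] {V : Type} [AddCommGroup V] [Module ℚ V] {ρ : G →* Module.End ℚ V}
  {β : LinearMap.BilinForm ℚ V} {σ : G} {L : AddSubgroup V} {u : V} {d : ℕ}

theorem Rep.fin (h : Rep ρ) : FiniteDimensional ℚ V := Module.finite_of_finrank_eq_succ h.dim

theorem rho_mul (ρ : G →* Module.End ℚ V) (g k : G) (x : V) : ρ (g * k) x = ρ g (ρ k x) := by rw [map_mul]; rfl

theorem rho_inv (ρ : G →* Module.End ℚ V) (g : G) (x : V) : ρ g (ρ g⁻¹ x) = x := by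
  rw [← rho_mul, mul_inv_cancel, map_one]; rfl

theorem rho_inv' (ρ : G →* Module.End ℚ V) (g : G) (x : V) : ρ g⁻¹ (ρ g x) = x := by
  rw [← rho_mul, inv_mul_cancel, map_one]; rfl

/-- No line is invariant. -/
theorem Rep.not_line (h : Rep ρ) {y : V} (hy : y ≠ 0) : ¬ ∀ g, ∃ c : ℚ, ρ g y = c • y := fun H => by
  rcases h.irr (Submodule.span ℚ {y}) (fun g w hw => by
    obtain ⟨a, rfl⟩ := Submodule.mem_span_singleton.1 hw
    obtain ⟨c, hc⟩ := H g
    rw [map_smul, hc]
    exact Submodule.smul_mem _ _ (Submodule.smul_mem _ _ (Submodule.mem_span_singleton_self y))) with e | e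
  · exact hy (Submodule.span_singleton_eq_bot.1 e)
  · have := finrank_span_singleton (K := ℚ) hy
    rw [e, finrank_top, h.dim] at this
    omega

theorem Inv.adj (h : Inv ρ β L) (g : G) (x y : V) : β (ρ g x) y = β x (ρ g⁻¹ y) := by
  rw [← h.inv g x, rho_inv]

theorem Inv.le_dual (h : Inv ρ β L) : L ≤ dual β L := fun x hx => h.int x hx

theorem Inv.stab_dual (h : Inv ρ β L) (g : G) {y : V} (hy : y ∈ dual β L) : ρ g y ∈ dual β L := fun x hx => by
  rw [h.adj]; exact hy _ (h.stab _ x hx)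

namespace Sh

theorem u_dual (h : Sh ρ β σ L u d) : u ∈ dual β L := (h.mem_dual u).2 ⟨1, by simp⟩

theorem int_u (h : Sh ρ β σ L u d) {x : V} (hx : x ∈ L) : IsInt (β x u) := by rw [h.symm]; exact h.u_dual x hx

theorem d_ne (h : Sh ρ β σ L u d) : (d : ℚ) ≠ 0 := by have := h.dpos; positivity

theorem u_ne (h : Sh ρ β σ L u d) : u ≠ 0 := fun e => by
  obtain ⟨l, -, hl⟩ := h.one
  simp [e] at hl

theorem w_mem (h : Sh ρ β σ L u d) : (d : ℚ) • u ∈ L := by simpa using (h.ordu d).2 dvd_rfl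

theorem isInt_of_smul (h : Sh ρ β σ L u d) {c : ℚ} (hc : c • u ∈ dual β L) : IsInt c := by
  obtain ⟨l, hl, e⟩ := h.one
  have := hc l hl
  rwa [map_smul, LinearMap.smul_apply, h.symm, e, smul_eq_mul, mul_one] at this

theorem fix_pow (h : Sh ρ β σ L u d) (i : ℕ) : ρ (σ ^ i) u = u := by
  induction i with
  | zero => simp
  | succ i ih => rw [pow_succ, rho_mul, h.fix, ih]

theorem pow_u (h : Sh ρ β σ L u d) (i : ℕ) (y : V) : β (ρ (σ ^ i) y) u = β y u := by
  conv_lhs => rw [← h.fix_pow i]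
  exact h.inv _ _ _

/-- The sum over the orbit of `σ`. -/
theorem sum_pow (h : Sh ρ β σ L u d) (y : V) : ∑ i ∈ Finset.range 23, ρ (σ ^ i) y = (d * β y u) • u := by
  obtain ⟨c, hc⟩ := h.line (∑ i ∈ Finset.range 23, ρ (σ ^ i) y) (by
    have e : σ ^ 23 = σ ^ 0 := by rw [← h.ord, pow_orderOf_eq_one, pow_zero]
    rw [map_sum]
    simp_rw [← rho_mul, ← pow_succ']
    rw [Finset.sum_range_succ, Finset.sum_range_succ' _ 22, e])
  have := congrArg (fun z => β z u) hc
  simp only [map_sum, LinearMap.sum_apply, h.pow_u, map_smul, LinearMap.smul_apply, h.norm, Finset.sum_const,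
    Finset.card_range, smul_eq_mul, nsmul_eq_mul] at this
  have hd := h.d_ne
  rw [hc, show c = d * β y u by field_simp at this; push_cast at this; linarith]

theorem fix_of_pow (h : Sh ρ β σ L u d) {i : ℕ} (h0 : 0 < i) (h1 : i < 23) {y : V} (hy : ρ (σ ^ i) y = y) :
    ρ σ y = y := by
  have hc : i.Coprime (orderOf σ) := by
    rw [h.ord]; exact (Nat.coprime_of_lt_prime h0.ne' h1 (by norm_num)).symm
  obtain ⟨m, hm⟩ := exists_pow_eq_self_of_coprime hc
  have : ∀ k, ρ ((σ ^ i) ^ k) y = y := fun k => by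
    induction k with
    | zero => simp
    | succ k ih => rw [pow_succ, rho_mul, hy, ih]
  rw [← hm, this]

/-- In an even lattice without roots, the component orthogonal to `u` of a vector not fixed by `σ` has norm at least
`44/23`. -/
theorem low (h : Sh ρ β σ L u d) (he : EvR β L) {l : V} (hl : l ∈ L) (c : ℚ) (hm : ρ σ (l + c • u) ≠ l + c • u) :
    44 / 23 + d * β (l + c • u) u ^ 2 / 23 ≤ β (l + c • u) (l + c • u) := by
  set y := l + c • u with hy
  have h1 : ∀ i ∈ Finset.range 22, β y (ρ (σ ^ (i + 1)) y) ≤ β y y - 2 := fun i hi => by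
    have hi' := Finset.mem_range.1 hi
    have hmem : y - ρ (σ ^ (i + 1)) y ∈ L := by
      rw [hy, map_add, map_smul, h.fix_pow, add_sub_add_right_eq_sub]
      exact L.sub_mem hl (h.stab _ _ hl)
    have hne : y - ρ (σ ^ (i + 1)) y ≠ 0 := fun e =>
      hm (h.fix_of_pow (Nat.succ_pos i) (by omega) (sub_eq_zero.1 e).symm)
    obtain ⟨n, hn⟩ := he.ev _ hmem
    have p1 := h.pos _ hne
    have p2 := he.rootless _ hmem
    rw [hn] at p1 p2
    have : (2 : ℤ) ≤ n := by
      have a1 : 0 < n := by exact_mod_cast (by linarith : (0 : ℚ) < n)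
      have a2 : n ≠ 1 := fun e => p2 (by simp [e])
      omega
    have : (2 : ℚ) ≤ n := by exact_mod_cast this
    rw [h.toPD.norm_sub, h.inv] at hn
    linarith
  have h2 := congrArg (β y) (h.sum_pow y)
  rw [map_sum, Finset.sum_range_succ', map_smul, pow_zero, map_one, Module.End.one_apply, smul_eq_mul] at h2
  have h3 := Finset.sum_le_sum h1
  rw [Finset.sum_const, Finset.card_range, nsmul_eq_mul] at h3
  push_cast at h3
  nlinarith

/-- The action on `L*/L`. -/
theorem exists_sgn (h : Sh ρ β σ L u d) (he : ∀ x ∈ L, IsEv (β x x)) (g : G) :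
    ∃ s : ℤ, ρ g u - (s : ℚ) • u ∈ L ∧ (2 * d : ℤ) ∣ 23 * (s ^ 2 - 1) := by
  obtain ⟨s, hs⟩ := (h.mem_dual _).1 (h.toInv.stab_dual g h.u_dual)
  obtain ⟨n, hn⟩ := he _ hs
  obtain ⟨k, hk⟩ := h.int_u hs
  refine ⟨s, hs, -n - s * k, ?_⟩
  have e := h.inv g u u
  rw [show ρ g u = (ρ g u - (s : ℚ) • u) + (s : ℚ) • u by abel, h.toPD.norm_add, hn] at e
  simp only [map_smul, LinearMap.smul_apply, smul_eq_mul, hk, h.norm] at e
  have hd := h.d_ne
  field_simp at e
  have : (23 * (s ^ 2 - 1) : ℚ) = 2 * d * (-n - s * k) := by linarith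
  exact_mod_cast this

theorem gform_pd (h : Sh ρ β σ L u d) : PD (gform β d) := by
  refine ⟨fun p q => by rw [gform_apply, gform_apply, h.symm]; ring, fun p hp => ?_⟩
  have hd : (0 : ℚ) < d := by exact_mod_cast h.dpos
  rw [gform_apply, mul_assoc]
  by_cases h1 : p.1 = 0
  · have h2 : p.2 ≠ 0 := fun e => hp (Prod.ext h1 e)
    have := mul_pos hd (mul_self_pos.2 h2)
    simpa [h1] using this
  · have := h.pos _ h1
    have := mul_nonneg hd.le (mul_self_nonneg p.2)
    linarith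

theorem finrank_prod (h : Sh ρ β σ L u d) : finrank ℚ (V × ℚ) = 24 := by
  haveI := h.toRep.fin
  rw [Module.finrank_prod, h.dim, finrank_self]

theorem inl_mem {x : V} (hx : x ∈ L) : (x, (0 : ℚ)) ∈ glue L u d := ⟨0, by simpa using hx, by simp⟩

theorem z_mem : (u, (1 / d : ℚ)) ∈ glue L u d := ⟨1, by simp, by simp⟩

theorem v_mem (h : Sh ρ β σ L u d) : ((0 : V), (1 : ℚ)) ∈ glue L u d :=
  ⟨d, by simpa using h.w_mem, by simp [h.d_ne]⟩

theorem mem_of_inl (h : Sh ρ β σ L u d) {x : V} (hx : (x, (0 : ℚ)) ∈ glue L u d) : x ∈ L := by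
  obtain ⟨j, h1, h2⟩ := hx
  have : (j : ℚ) = 0 := by simpa [h.d_ne] using h2.symm
  simpa [this] using h1

theorem glue_lat (h : Sh ρ β σ L u d) : Lat (glue L u d) := by
  constructor
  · have : glue L u d = L.map (AddMonoidHom.inl V ℚ) ⊔ AddSubgroup.closure {(u, (1 / d : ℚ))} := by
      refine le_antisymm ?_ (sup_le ?_ ?_)
      · rintro p ⟨j, h1, h2⟩
        refine AddSubgroup.mem_sup.2 ⟨(p.1 - (j : ℚ) • u, 0), ⟨_, h1, rfl⟩, (j : ℚ) • (u, (1 / d : ℚ)),
          (IsInt.cast j).smul_mem (AddSubgroup.subset_closure rfl), Prod.ext (by simp) (by simp [h2, div_eq_mul_inv])⟩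
      · rintro _ ⟨x, hx, rfl⟩; exact inl_mem hx
      · exact (AddSubgroup.closure_le _).2 (Set.singleton_subset_iff.2 z_mem)
    rw [this]
    obtain ⟨S, hS, hf⟩ := (AddSubgroup.fg_iff _).1 h.fg
    rw [← hS, AddMonoidHom.map_closure, ← AddSubgroup.closure_union]
    exact (AddSubgroup.fg_iff _).2 ⟨_, rfl, (hf.image _).union (Set.finite_singleton _)⟩
  · intro p
    obtain ⟨n, hn, hp⟩ := h.full p.1
    refine ⟨p.2.den * n, Nat.mul_pos p.2.den_pos hn, ?_⟩
    have e : ((p.2.den * n : ℕ) : ℚ) • p = (p.2.den : ℚ) • ((n : ℚ) • p.1, (0 : ℚ)) + ((n * p.2.num : ℤ) : ℚ) • ((0 : V), (1 : ℚ)) := by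
      refine Prod.ext (by simp [mul_smul]) ?_
      simp only [Nat.cast_mul, Prod.smul_snd, smul_eq_mul, Prod.snd_add, mul_zero, mul_one, zero_add, Int.cast_mul,
        Int.cast_natCast]
      rw [← Rat.den_mul_eq_num]; ring
    rw [e]
    exact AddSubgroup.add_mem _ ((IsInt.nat _).smul_mem (inl_mem hp)) ((IsInt.cast _).smul_mem h.v_mem)

/-- The form on two glued vectors. -/
theorem gform_glue (h : Sh ρ β σ L u d) {p q : V × ℚ} {i j : ℤ} (hp : p.2 = i / d) (hq : q.2 = j / d) :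
    gform β d p q = β (p.1 - (i : ℚ) • u) (q.1 - (j : ℚ) • u) + j * β (p.1 - (i : ℚ) • u) u +
      i * β (q.1 - (j : ℚ) • u) u + i * j * (24 / d) := by
  have hd := h.d_ne
  simp only [gform_apply, hp, hq, map_sub, map_smul, LinearMap.sub_apply, LinearMap.smul_apply, smul_eq_mul, h.norm,
    h.symm u q.1]
  field_simp
  ring

theorem glue_ev (h : Sh ρ β σ L u d) (he : ∀ x ∈ L, IsEv (β x x)) (hd : d ∣ 12) :
    ∀ p ∈ glue L u d, IsEv (gform β d p p) := fun p ⟨j, h1, h2⟩ => by
  obtain ⟨n, hn⟩ := he _ h1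
  obtain ⟨k, hk⟩ := h.int_u h1
  obtain ⟨m, hm⟩ := hd
  have hd := h.d_ne
  have : (24 / d : ℚ) = 2 * m := by
    field_simp
    have : (12 : ℚ) = d * m := by exact_mod_cast hm
    linarith
  exact ⟨n + j * k + j * j * m, by rw [h.gform_glue h2 h2, hn, hk, this]; push_cast; ring⟩

theorem glue_dual (h : Sh ρ β σ L u d) (hd : d ∣ 24) : dual (gform β d) (glue L u d) = glue L u d := by
  obtain ⟨m, hm⟩ := hd
  have hd := h.d_ne
  have h24 : (24 / d : ℚ) = m := by
    field_simp
    exact_mod_cast hm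
  have hle : glue L u d ≤ dual (gform β d) (glue L u d) := fun p ⟨i, h1, h2⟩ q ⟨j, k1, k2⟩ => by
    rw [h.gform_glue h2 k2, h24]
    exact (((h.int _ h1 _ k1).add ((IsInt.cast j).mul (h.int_u h1))).add ((IsInt.cast i).mul (h.int_u k1))).add
      (((IsInt.cast i).mul (IsInt.cast j)).mul (IsInt.nat m))
  refine le_antisymm (fun p hp => ?_) hle
  obtain ⟨j, hj⟩ := (h.mem_dual p.1).1 fun x hx => by simpa using hp _ (inl_mem hx)
  have hq : (p.1, (j / d : ℚ)) ∈ glue L u d := ⟨j, hj, rfl⟩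
  have := AddSubgroup.sub_mem _ hp (hle hq) _ z_mem
  simp only [gform_apply, Prod.fst_sub, sub_self, map_zero, LinearMap.zero_apply, Prod.snd_sub, zero_add] at this
  rw [show p = (p.1, (j / d : ℚ)) + (d * (p.2 - j / d) * (1 / d)) • ((0 : V), (1 : ℚ)) from
    Prod.ext (by simp) (by simp only [Prod.snd_add, Prod.smul_snd, smul_eq_mul]; field_simp; ring)]
  exact AddSubgroup.add_mem _ hq (this.smul_mem h.v_mem)

end Sh

end CL.F23
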