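/-
The Leech lattice is the only even unimodular lattice of rank 24 without roots (form used for degree 23).
-/
import Cfsg.Agent.Lat.F0
import Cfsg.Agent.Spor.LeechUniq

set_option autoImplicit false

open Module

namespace CL.F23

section
variable {W : Type} [AddCommGroup W] [Module ℚ W]

theorem Lat.isLattice_int {L : AddSubgroup W} (h : Lat L) : Submodule.IsLattice ℚ (AddSubgroup.toIntSubmodule L) where
  fg := by
    rw [Submodule.fg_iff_addSubgroup_fg]; exact h.fg
  span_eq_top := by
    rw [eq_top_iff]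
    intro v _
    obtain ⟨n, hn, hv⟩ := h.full v
    have hn' : (n : ℚ) ≠ 0 := by positivity
    have : v = (n : ℚ)⁻¹ • ((n : ℚ) • v) := by rw [smul_smul, inv_mul_cancel₀ hn', one_smul]
    rw [this]
    exact Submodule.smul_mem _ _ (Submodule.subset_span hv)

/-- A full lattice has a `ℤ`-basis that is a `ℚ`-basis of the space. -/
theorem Lat.exists_zbasis {L : AddSubgroup W} (h : Lat L) {n : ℕ} (hn : finrank ℚ W = n) :
    ∃ (b : Basis (Fin n) ℤ L) (e : Basis (Fin n) ℚ W), ∀ i, e i = b i := by
  haveI := h.isLattice_int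
  haveI : Module.Free ℤ (AddSubgroup.toIntSubmodule L) := Submodule.IsLattice.free ℚ _
  haveI : Module.Finite ℤ (AddSubgroup.toIntSubmodule L) := Submodule.IsLattice.finite ℚ _
  have hr : finrank ℤ (AddSubgroup.toIntSubmodule L) = n := by
    rw [← hn, finrank, finrank, Submodule.IsLattice.rank' ℚ]
  let b := Module.finBasisOfFinrankEq ℤ _ hr
  exact ⟨b, b.extendOfIsLattice ℚ, fun i => b.extendOfIsLattice_apply ℚ i⟩

end

theorem leechThm : LeechThm := by
  intro W _ _ γ Λ hr hγ hΛ hd hev
  obtain ⟨b, e, hbe⟩ := hΛ.exists_zbasis hr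
  haveI : Module.Free ℤ Λ := Module.Free.of_basis b
  haveI : Module.Finite ℤ Λ := Module.Finite.of_basis b
  haveI : Module.Finite ℚ W := Module.Finite.of_basis e
  have hint : ∀ x y : Λ, IsInt (γ x y) := fun x y => (mem_dual.1 (hd.symm ▸ x.2 : (x : W) ∈ dual γ Λ)) y y.2
  choose c hc using hint
  let B : Λ →+ Λ →+ ℤ := AddMonoidHom.mk' (fun x => AddMonoidHom.mk' (c x) (fun y z => by
      have : ((c x (y + z) : ℤ) : ℚ) = ((c x y + c x z : ℤ) : ℚ) := by
        push_cast; rw [← hc, ← hc, ← hc]; simp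
      exact_mod_cast this)) (fun x y => by
      ext z
      have : ((c (x + y) z : ℤ) : ℚ) = ((c x z + c y z : ℤ) : ℚ) := by
        push_cast; rw [← hc, ← hc, ← hc]; simp
      exact_mod_cast this)
  have hB : ∀ x y : Λ, ((B x y : ℤ) : ℚ) = γ x y := fun x y => (hc x y).symm
  have hnd : γ.Nondegenerate := by
    have : ∀ x, (∀ y, γ x y = 0) → x = 0 := fun x hx => by
      by_contra h0
      exact (hγ.pos x h0).ne' (hx x)
    exact ⟨this, fun x hx => this x fun y => by rw [hγ.symm, hx]⟩
  obtain ⟨f, -, hf⟩ := CL.Spor.LeechU.leech_unique (M := Λ) (by rw [finrank_eq_card_basis b]; simp) B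
    (fun x y => by
      have := hγ.symm x y
      rw [← hB, ← hB] at this
      exact_mod_cast this)
    (fun x hx => by
      have := hγ.pos x (fun a => hx (Subtype.ext a))
      rw [← hB] at this
      exact_mod_cast this)
    (fun x => by
      obtain ⟨n, hn⟩ := hev.ev x x.2
      rw [← hB] at hn
      exact ⟨n, by exact_mod_cast hn⟩)
    (fun x hx => hev.rootless x x.2 (by rw [← hB, hx]; norm_num))
    (fun φ => by
      let Φ : Module.Dual ℚ W := e.constr ℚ fun i => (φ (b i) : ℚ)
      have hΦ : ∀ y : Λ, Φ y = φ y := by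
        intro y
        conv_lhs => rw [← b.sum_repr y]
        conv_rhs => rw [← b.sum_repr y]
        simp only [AddSubgroup.val_finsetSum, AddSubgroup.coe_zsmul, map_sum, map_zsmul, ← hbe, Φ,
          Basis.constr_basis, smul_eq_mul, zsmul_eq_mul]
        push_cast; rfl
      have hx : ∀ y, γ ((γ.toDual hnd).symm Φ) y = Φ y := fun y => by simp
      have hm : (γ.toDual hnd).symm Φ ∈ Λ := by
        rw [← hd, mem_dual]
        intro y hy
        rw [hx, hΦ ⟨y, hy⟩]
        exact IsInt.cast _
      refine ⟨⟨_, hm⟩, fun y => ?_⟩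
      have := hB ⟨_, hm⟩ y
      rw [hx, hΦ] at this
      exact_mod_cast this)
  exact ⟨f, fun x y => by rw [hf, ← hB]; push_cast; rfl⟩

end CL.F23
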