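/-
Degree 23: an even rootless invariant lattice of discriminant 4 or 6 embeds the group in `2 × Co₂` or `2 × Co₃`.
-/
import Cfsg.Agent.Lat.F1
import Cfsg.Agent.Lat.Leech
import Cfsg.Agent.S0400
import Cfsg.Agent.S0401

set_option autoImplicit false

open Module Cfsg

namespace CL.F23

universe u

variable {G : Type u} [Group G] {V : Type} [AddCommGroup V] [Module ℚ V] {ρ : G →* Module.End ℚ V}
  {β : LinearMap.BilinForm ℚ V} {σ : G} {L : AddSubgroup V} {u : V} {d : ℕ}

namespace Sh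

theorem emb_rootless (h : Sh ρ β σ L u d) (he : EvR β L) (hd : d = 4 ∨ d = 6) :
    ∀ p ∈ glue L u d, gform β d p p ≠ 2 := by
  rintro p ⟨j, h1, h2⟩ e
  have hd0 := h.d_ne
  have hd1 : (0 : ℚ) < d := by exact_mod_cast h.dpos
  have hd6 : (d : ℚ) ≤ 6 := by rcases hd with rfl | rfl <;> norm_num
  have hp : p.1 = (p.1 - (j : ℚ) • u) + (j : ℚ) • u := by abel
  rw [gform_apply, h2] at e
  have e' : β p.1 p.1 + (j : ℚ) ^ 2 / d = 2 := by rw [← e]; field_simp
  by_cases hm : ρ σ p.1 = p.1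
  · obtain ⟨c, hc⟩ := h.line _ hm
    obtain ⟨n, rfl⟩ := h.isInt_of_smul (hc ▸ (h.mem_dual p.1).2 ⟨j, h1⟩)
    rw [hc] at e'
    simp only [map_smul, LinearMap.smul_apply, smul_eq_mul, h.norm] at e'
    field_simp at e'
    have e2 : n ^ 2 * 23 + j ^ 2 = (d : ℤ) * 2 := by exact_mod_cast e'
    have hn : n = 0 := by
      by_contra hn
      have := sq_pos_of_ne_zero hn
      have := sq_nonneg j
      rcases hd with rfl | rfl <;> push_cast at e2 <;> omega
    subst hn
    have a1 : j < 4 := by rcases hd with rfl | rfl <;> push_cast at e2 <;> nlinarith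
    have a2 : -4 < j := by rcases hd with rfl | rfl <;> push_cast at e2 <;> nlinarith
    rcases hd with rfl | rfl <;> push_cast at e2 <;> interval_cases j <;> omega
  · have hl := h.low he h1 j (by rw [← hp]; exact hm)
    rw [← hp] at hl
    have a1 : 0 ≤ (d : ℚ) * β p.1 u ^ 2 / 23 := by positivity
    have a2 : (j : ℚ) ^ 2 / d ≤ 2 / 23 := by linarith
    rw [div_le_div_iff₀ hd1 (by norm_num)] at a2
    have a3 : (j : ℚ) ^ 2 < 1 := by linarith
    have a4 : j ^ 2 < 1 := by exact_mod_cast a3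
    have hj : j = 0 := by
      by_contra hn
      have := sq_pos_of_ne_zero hn
      omega
    subst hj
    apply he.rootless p.1 (by simpa using h1)
    simpa using e'

theorem emb_sgn (h : Sh ρ β σ L u d) (he : EvR β L) (hd : d = 4 ∨ d = 6) :
    ∃ ε : G →* ℤˣ, ∀ g, ρ g u - ((ε g : ℤ) : ℚ) • u ∈ L := by
  have h1 : ∀ g, ∃ e : ℤˣ, ρ g u - ((e : ℤ) : ℚ) • u ∈ L := by
    intro g
    obtain ⟨s, hs, hs'⟩ := h.exists_sgn he.ev g
    have key : (d : ℤ) ∣ s - 1 ∨ (d : ℤ) ∣ s + 1 := by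
      have e : s = 12 * (s / 12) + s % 12 := by omega
      have e1 : 0 ≤ s % 12 := by omega
      have e2 : s % 12 < 12 := by omega
      generalize s / 12 = t at e
      generalize s % 12 = r at e e1 e2
      have e3 : s ^ 2 = 24 * (6 * t ^ 2 + t * r) + r ^ 2 := by rw [e]; ring
      rw [e3] at hs'
      generalize 6 * t ^ 2 + t * r = w at hs'
      rcases hd with rfl | rfl <;> push_cast at hs' ⊢ <;> interval_cases r <;> omega
    rcases key with k | k
    · refine ⟨1, ?_⟩
      convert L.add_mem hs ((h.ordu _).2 k) using 1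
      push_cast; rw [sub_smul]; abel
    · refine ⟨-1, ?_⟩
      convert L.add_mem hs ((h.ordu _).2 k) using 1
      push_cast; rw [add_smul, neg_smul]; abel
  choose ε hε using h1
  have huniq : ∀ (x : V) (a b : ℤˣ), x - ((a : ℤ) : ℚ) • u ∈ L → x - ((b : ℤ) : ℚ) • u ∈ L → a = b := by
    intro x a b ha hb
    have h2 : (((b : ℤ) - a : ℤ) : ℚ) • u ∈ L := by
      convert L.sub_mem ha hb using 1
      push_cast; rw [sub_smul]; abel
    have h3 := (h.ordu _).1 h2
    rcases Int.units_eq_one_or a with rfl | rfl <;> rcases Int.units_eq_one_or b with rfl | rfl <;>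
      rcases hd with rfl | rfl <;> first | rfl | (exfalso; revert h3; decide)
  refine ⟨MonoidHom.mk' ε fun g k => huniq (ρ (g * k) u) _ _ (hε _) ?_, hε⟩
  convert L.add_mem (h.stab g _ (hε k)) ((IsInt.cast (ε k : ℤ)).smul_mem (hε g)) using 1
  rw [rho_mul, map_sub, map_smul, smul_sub, smul_smul, Units.val_mul]
  push_cast
  rw [mul_comm]; abel

/-- The action on the glued lattice. -/
theorem emb_act (h : Sh ρ β σ L u d) (ε : G →* ℤˣ) (hε : ∀ g, ρ g u - ((ε g : ℤ) : ℚ) • u ∈ L) :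
    ∃ τ : G →* Equiv.Perm (glue L u d), ∀ g p, ((τ g p : glue L u d) : V × ℚ) =
      (((ε g : ℤ) : ℚ) • ρ g (p : V × ℚ).1, (p : V × ℚ).2) := by
  have hm : ∀ g, ∀ p ∈ glue L u d, (((ε g : ℤ) : ℚ) • ρ g p.1, p.2) ∈ glue L u d := by
    rintro g p ⟨j, h1, h2⟩
    refine ⟨j, ?_, h2⟩
    have e : ((ε g : ℤ) : ℚ) * ((ε g : ℤ) : ℚ) = 1 := by
      rcases Int.units_eq_one_or (ε g) with a | a <;> simp [a]
    convert L.add_mem ((IsInt.cast (ε g : ℤ)).smul_mem (h.stab g _ h1))
      (((IsInt.cast j).mul (IsInt.cast (ε g : ℤ))).smul_mem (hε g)) using 1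
    simp only [map_sub, map_smul, smul_sub, smul_smul]
    rw [mul_assoc, e, mul_one, mul_comm]; abel
  letI : MulAction G (glue L u d) :=
    { smul := fun g p => ⟨_, hm g p p.2⟩
      one_smul := fun p => Subtype.ext (show (((ε 1 : ℤ) : ℚ) • ρ 1 (p : V × ℚ).1, (p : V × ℚ).2) = _ by simp)
      mul_smul := fun g k p => Subtype.ext (show (((ε (g * k) : ℤ) : ℚ) • ρ (g * k) (p : V × ℚ).1, (p : V × ℚ).2) =
        (((ε g : ℤ) : ℚ) • ρ g (((ε k : ℤ) : ℚ) • ρ k (p : V × ℚ).1), (p : V × ℚ).2) by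
          simp [smul_smul]) }
  exact ⟨MulAction.toPermHom G _, fun _ _ => rfl⟩

theorem emb_main (h : Sh ρ β σ L u d) (he : EvR β L) (hd : d = 4 ∨ d = 6) (w : leechLattice)
    (hw : ∀ v : leechLattice, sqNorm (v : GolayPt → ℤ) = 8 * d → ∃ g : Co0, g • v = w) :
    ∃ f : G →* Multiplicative (ZMod 2) × ↥(Co0 ⊓ MulAction.stabilizer (Equiv.Perm leechLattice) w),
      Function.Injective f := by
  obtain ⟨f, hf⟩ := leechThm (V × ℚ) (gform β d) (glue L u d) h.finrank_prod h.gform_pd h.glue_lat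
    (h.glue_dual (by rcases hd with rfl | rfl <;> norm_num))
    ⟨h.glue_ev he.ev (by rcases hd with rfl | rfl <;> norm_num), h.emb_rootless he hd⟩
  have hn : ∀ x : glue L u d, ((sqNorm ((f x : leechLattice) : GolayPt → ℤ) : ℤ) : ℚ) = 8 * gform β d x x := by
    intro x
    rw [← hf]
    simp only [sqNorm, dotInt, sq]
  obtain ⟨k, hk⟩ := hw (f ⟨_, h.v_mem⟩) (by
    have := hn ⟨_, h.v_mem⟩
    simp only [gform_apply, map_zero, mul_one, zero_add] at this
    exact_mod_cast this)
  let F : glue L u d ≃ leechLattice := f.toEquiv.trans (k : Equiv.Perm leechLattice)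
  have hF : ∀ x, F x = (k : Equiv.Perm leechLattice) (f x) := fun _ => rfl
  have hFa : ∀ x y, F (x + y) = F x + F y := fun x y => by rw [hF, map_add, k.2.1]; rfl
  have hFn : ∀ x, ((sqNorm ((F x : leechLattice) : GolayPt → ℤ) : ℤ) : ℚ) = 8 * gform β d x x := fun x => by
    rw [hF, k.2.2, hn]
  have hFv : F ⟨_, h.v_mem⟩ = w := hk
  obtain ⟨ε, hε⟩ := h.emb_sgn he hd
  obtain ⟨τ, hτ⟩ := h.emb_act ε hε
  let φ : G →* Equiv.Perm leechLattice := (F.permCongrHom).toMonoidHom.comp τ
  have hφ : ∀ g x, φ g (F x) = F (τ g x) := fun g x => by simp [φ]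
  have hmem : ∀ g, φ g ∈ Co0 ⊓ MulAction.stabilizer (Equiv.Perm leechLattice) w := by
    intro g
    refine ⟨⟨fun v w => ?_, fun v => ?_⟩, ?_⟩
    · obtain ⟨x, rfl⟩ := F.surjective v
      obtain ⟨y, rfl⟩ := F.surjective w
      rw [← hFa, hφ, hφ, hφ, ← hFa]
      congr 1
      apply Subtype.ext
      simp [hτ]
    · obtain ⟨x, rfl⟩ := F.surjective v
      have e : ((ε g : ℤ) : ℚ) * ((ε g : ℤ) : ℚ) = 1 := by
        rcases Int.units_eq_one_or (ε g) with a | a <;> simp [a]
      have : gform β d (τ g x) (τ g x) = gform β d x x := by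
        simp only [hτ, gform_apply, map_smul, LinearMap.smul_apply, smul_eq_mul, h.inv]
        rw [← mul_assoc, e, one_mul]
      have h2 := hFn (τ g x)
      rw [this, ← hFn, ← hφ] at h2
      exact_mod_cast h2
    · change φ g w = w
      rw [← hFv, hφ]
      congr 1
      apply Subtype.ext
      simp [hτ]
  let χ : ℤˣ →* Multiplicative (ZMod 2) := MonoidHom.mk' (fun a => Multiplicative.ofAdd (if a = 1 then 0 else 1))
    (by decide)
  refine ⟨(χ.comp ε).prod (φ.codRestrict _ hmem), (injective_iff_map_eq_one _).2 fun g hg => ?_⟩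
  have h1 : χ (ε g) = 1 := congrArg Prod.fst hg
  have h2 : φ g = 1 := congrArg (fun z => (z.2 : Equiv.Perm leechLattice)) hg
  have h3 : ε g = 1 := by
    rcases Int.units_eq_one_or (ε g) with a | a
    · exact a
    · rw [a] at h1; exact absurd h1 (by decide)
  apply h.inj
  rw [map_one]
  ext x
  obtain ⟨n, hn0, hx⟩ := h.full x
  have h4 := hφ g ⟨_, inl_mem (u := u) (d := d) hx⟩
  rw [h2, Equiv.Perm.one_apply] at h4
  have h5 := congrArg (fun z : glue L u d => (z : V × ℚ).1) (F.injective h4)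
  simp only [hτ, h3, Units.val_one, Int.cast_one, one_smul, map_smul] at h5
  have hn' : (n : ℚ) ≠ 0 := by positivity
  exact (smul_right_injective V hn' h5).symm

end Sh

theorem embThm : EmbThm.{u} := by
  intro G _ V _ _ ρ β σ L u d h he hd
  rcases hd with rfl | rfl
  · exact Or.inl (h.emb_main he (Or.inl rfl) Spor.leechU fun v hv =>
      Cfsg.Agent.S0400.result v _ (by simpa using hv) (by decide))
  · exact Or.inr (h.emb_main he (Or.inr rfl) Spor.leechV fun v hv =>
      Cfsg.Agent.S0401.result v _ (by simpa using hv) (by decide))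

end CL.F23
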