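/-
Degree 23: reduction to an even rootless lattice of discriminant 2, 4 or 6.
-/
import Cfsg.Agent.Lat.F1

set_option autoImplicit false

open Module

namespace CL.F23

universe u

variable {G : Type u} [Group G] {V : Type} [AddCommGroup V] [Module ℚ V] {ρ : G →* Module.End ℚ V}
  {β : LinearMap.BilinForm ℚ V} {σ : G} {L : AddSubgroup V} {u : V} {d : ℕ}

theorem isEv_cast {n : ℤ} : IsEv (n : ℚ) ↔ n % 2 = 0 :=
  ⟨fun ⟨m, hm⟩ => by have : n = 2 * m := by exact_mod_cast hm
                     omega, fun h => ⟨n / 2, by exact_mod_cast (by omega : n = 2 * (n / 2))⟩⟩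

namespace Sh

/-- The parity of the norm. -/
theorem ev_par (h : Sh ρ β σ L u d) {x : V} (hx : x ∈ L) :
    ∃ n b : ℤ, β x x = n ∧ β x u = b ∧ (n - d * b) % 2 = 0 := by
  obtain ⟨n, hn⟩ := h.int x hx x hx
  obtain ⟨b, hb⟩ := h.int_u hx
  have key : ∀ k : ℕ, ∃ m : ℤ, β (∑ i ∈ Finset.range k, ρ (σ ^ i) x) (∑ i ∈ Finset.range k, ρ (σ ^ i) x) =
      k * n + 2 * m := by
    intro k
    induction k with
    | zero => exact ⟨0, by simp⟩
    | succ k ih =>
      obtain ⟨m, hm⟩ := ih
      obtain ⟨c, hc⟩ := h.int _ (L.sum_mem (t := Finset.range k) fun i _ => h.stab (σ ^ i) x hx) _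
        (h.stab (σ ^ k) x hx)
      refine ⟨m + c, ?_⟩
      rw [Finset.sum_range_succ, h.toPD.norm_add, hm, hc, h.inv, hn]
      push_cast; ring
  obtain ⟨m, hm⟩ := key 23
  rw [h.sum_pow, hb] at hm
  simp only [map_smul, LinearMap.smul_apply, smul_eq_mul, h.norm] at hm
  have hd := h.d_ne
  have e : (23 * (d * b * b) : ℚ) = 23 * n + 2 * m := by
    push_cast at hm
    rw [← hm]; field_simp
  have e' : (23 * (d * b * b) : ℤ) = 23 * n + 2 * m := by exact_mod_cast e
  refine ⟨n, b, hn, hb, ?_⟩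
  have e2 : (2 : ℤ) ∣ d * b * b - d * b := by
    rw [show (d : ℤ) * b * b - d * b = d * ((b - 1) * (b - 1 + 1)) by ring]
    exact Dvd.dvd.mul_left (Int.even_mul_succ_self _).two_dvd _
  omega

/-- The even part. -/
def evp (β : LinearMap.BilinForm ℚ V) (L : AddSubgroup V) (u : V) : AddSubgroup V where
  carrier := {x | x ∈ L ∧ IsInt (β x u / 2)}
  zero_mem' := ⟨L.zero_mem, by simpa using IsInt.zero⟩
  add_mem' := fun ha hb => ⟨L.add_mem ha.1 hb.1, by simpa [add_div] using ha.2.add hb.2⟩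
  neg_mem' := fun ha => ⟨L.neg_mem ha.1, by simpa [neg_div] using ha.2.neg⟩

theorem mem_evp {x : V} : x ∈ evp β L u ↔ x ∈ L ∧ IsInt (β x u / 2) := Iff.rfl

theorem isInt_half {b : ℤ} : IsInt ((b : ℚ) / 2) ↔ b % 2 = 0 :=
  ⟨fun ⟨m, hm⟩ => by
    have : (b : ℚ) = 2 * m := by linarith
    have : b = 2 * m := by exact_mod_cast this
    omega, fun h => ⟨b / 2, by
    have : (b : ℚ) = 2 * ((b / 2 : ℤ) : ℚ) := by exact_mod_cast (by omega : b = 2 * (b / 2))
    linarith⟩⟩

theorem mem_evp' (h : Sh ρ β σ L u d) (hd : d % 2 = 1) {x : V} : x ∈ evp β L u ↔ x ∈ L ∧ IsEv (β x x) := by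
  refine and_congr_right fun hx => ?_
  obtain ⟨n, b, hn, hb, e⟩ := h.ev_par hx
  obtain ⟨t, rfl⟩ : ∃ t, d = 2 * t + 1 := ⟨d / 2, by omega⟩
  rw [hn, hb, isInt_half, isEv_cast]
  push_cast at e
  rw [show (2 * (t : ℤ) + 1) * b = 2 * (t * b) + b by ring] at e
  omega

theorem sh_evp (h : Sh ρ β σ L u d) (hd : d % 2 = 1) : Sh ρ β σ (evp β L u) (((1 : ℚ) / 2) • u) (4 * d) := by
  obtain ⟨l, hl, hlu⟩ := h.one
  have hd0 := h.d_ne
  have hdu : β ((d : ℚ) • u) u = 23 := by
    rw [map_smul, LinearMap.smul_apply, h.norm, smul_eq_mul]; field_simp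
  have h2l : (2 : ℚ) • l ∈ evp β L u := ⟨(IsInt.nat 2).smul_mem hl, 1, by simp [hlu]⟩
  have hud : ∀ x ∈ evp β L u, IsInt (β (((1 : ℚ) / 2) • u) x) := fun x hx => by
    convert hx.2 using 1
    rw [map_smul, LinearMap.smul_apply, h.symm, smul_eq_mul]; ring
  exact
  { h.toRep, h.toPD, Lat.of_le (L' := evp β L u) h.toLat h.toLat (fun x hx => hx.1) two_pos (fun x hx => by
      obtain ⟨b, hb⟩ := h.int_u hx
      exact ⟨(IsInt.nat 2).smul_mem hx, b, by simp [hb]⟩) with
    inv := h.inv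
    stab := fun g x hx => (h.mem_evp' hd).2 ⟨h.stab g x hx.1, by rw [h.inv]; exact ((h.mem_evp' hd).1 hx).2⟩
    int := fun x hx y hy => h.int x hx.1 y hy.1
    ord := h.ord
    fix := by rw [map_smul, h.fix]
    line := fun v hv => by
      obtain ⟨c, hc⟩ := h.line v hv
      exact ⟨2 * c, by rw [hc, smul_smul]; congr 1; ring⟩
    mem_dual := fun y => by
      constructor
      · intro hy
        obtain ⟨k, hk⟩ := hy _ h2l
        have hy' : y - (k : ℚ) • ((1 : ℚ) / 2) • u ∈ dual β L := by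
          intro x hx
          obtain ⟨b, hb⟩ := h.int_u hx
          have hxE : x - (b : ℚ) • l ∈ evp β L u :=
            ⟨L.sub_mem hx ((IsInt.cast b).smul_mem hl), 0, by simp [hb, hlu]⟩
          have h0 : β (y - (k : ℚ) • ((1 : ℚ) / 2) • u) l = 0 := by
            rw [map_smul, smul_eq_mul] at hk
            simp only [map_sub, map_smul, LinearMap.sub_apply, LinearMap.smul_apply, smul_eq_mul, h.symm u l, hlu]
            linarith
          have h1 : IsInt (β (y - (k : ℚ) • ((1 : ℚ) / 2) • u) (x - (b : ℚ) • l)) := by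
            rw [map_sub β, LinearMap.sub_apply, map_smul β, LinearMap.smul_apply, smul_eq_mul]
            exact (hy _ hxE).sub ((IsInt.cast k).mul (hud _ hxE))
          rwa [map_sub, map_smul, h0, smul_zero, sub_zero] at h1
        obtain ⟨j, hj⟩ := (h.mem_dual _).1 hy'
        obtain ⟨b, hb⟩ := h.int_u hj
        rcases Int.emod_two_eq_zero_or_one b with e | e
        · refine ⟨k + 2 * j, ?_⟩
          have : y - ((k + 2 * j : ℤ) : ℚ) • ((1 : ℚ) / 2) • u = y - (k : ℚ) • ((1 : ℚ) / 2) • u - (j : ℚ) • u := by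
            push_cast; module
          rw [this]
          exact ⟨hj, by rw [hb]; exact isInt_half.2 e⟩
        · refine ⟨k + 2 * j + 2 * d, ?_⟩
          have : y - ((k + 2 * j + 2 * d : ℤ) : ℚ) • ((1 : ℚ) / 2) • u =
              y - (k : ℚ) • ((1 : ℚ) / 2) • u - (j : ℚ) • u - (d : ℚ) • u := by
            push_cast; module
          rw [this]
          refine ⟨L.sub_mem hj h.w_mem, ?_⟩
          rw [map_sub β, LinearMap.sub_apply, hb, hdu]
          have := (isInt_half (b := b - 23)).2 (by omega)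
          push_cast at this
          exact this
      · rintro ⟨j, hj⟩ x hx
        have := (h.int _ hj.1 x hx.1).add ((IsInt.cast j).mul (hud x hx))
        rwa [map_sub β, LinearMap.sub_apply, map_smul β, LinearMap.smul_apply, smul_eq_mul, sub_add_cancel] at this
    ordu := fun j => by
      rw [smul_smul]
      constructor
      · rintro ⟨h1, h2⟩
        obtain ⟨i, hi⟩ := h.isInt_of_smul (h.toInv.le_dual h1)
        rw [hi] at h1 h2
        obtain ⟨t, rfl⟩ := (h.ordu i).1 h1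
        have e : β ((((d : ℤ) * t : ℤ) : ℚ) • u) u = ((23 * t : ℤ) : ℚ) := by
          rw [map_smul, LinearMap.smul_apply, h.norm, smul_eq_mul]; push_cast; field_simp
        rw [e, isInt_half] at h2
        have hj : j = 2 * (d * t) := by
          have : (j : ℚ) = ((2 * (d * t) : ℤ) : ℚ) := by push_cast at hi ⊢; linarith
          exact_mod_cast this
        obtain ⟨s, rfl⟩ : ∃ s, t = 2 * s := ⟨t / 2, by omega⟩
        exact ⟨s, by rw [hj]; push_cast; ring⟩
      · rintro ⟨t, rfl⟩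
        have e : ((((4 * d : ℕ) : ℤ) * t : ℤ) : ℚ) * (1 / 2) = ((2 * t : ℤ) : ℚ) * d := by push_cast; ring
        rw [e, mul_smul]
        refine ⟨(IsInt.cast _).smul_mem h.w_mem, 23 * t, ?_⟩
        rw [map_smul, LinearMap.smul_apply, hdu, smul_eq_mul]; push_cast; ring
    one := ⟨_, h2l, by simp [hlu]⟩
    dpos := by have := h.dpos; omega
    norm := by
      simp only [map_smul, LinearMap.smul_apply, smul_eq_mul, h.norm]
      push_cast; field_simp; norm_num }

theorem ev_bound (h : Sh ρ β σ L u d) (he : EvR β L) : d ≤ 12 := by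
  obtain ⟨g, hg⟩ : ∃ g, ρ σ (ρ g u) ≠ ρ g u := by
    by_contra hc
    push Not at hc
    exact h.toRep.not_line h.u_ne fun g => h.line _ (hc g)
  obtain ⟨j, hj⟩ := (h.mem_dual _).1 (h.toInv.stab_dual g h.u_dual)
  have := h.low he hj j (by rwa [sub_add_cancel])
  rw [sub_add_cancel, h.inv, h.norm] at this
  have hd : (0 : ℚ) < d := by exact_mod_cast h.dpos
  have a1 : 0 ≤ (d : ℚ) * β (ρ g u) u ^ 2 / 23 := by positivity
  have a2 : (44 / 23 : ℚ) ≤ 23 / d := by linarith
  rw [div_le_div_iff₀ (by norm_num) hd] at a2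
  have a3 : (d : ℚ) < 13 := by linarith
  have : d < 13 := by exact_mod_cast a3
  omega

/-- Counting modulo 23. -/
theorem ev_count (h : Sh ρ β σ L u d) (S : Set V) (hS : S.Finite) (hs : ∀ y ∈ S, ρ σ y ∈ S) :
    S.ncard ≡ {y ∈ S | ρ σ y = y}.ncard [MOD 23] := by
  classical
  haveI := hS.fintype
  haveI : Fact (Nat.Prime 23) := ⟨by norm_num⟩
  let f : Function.End S := fun y => ⟨ρ σ y, hs y y.2⟩
  have hf : ∀ (k : ℕ) (y : S), ((f ^ k) y : V) = ρ (σ ^ k) y := by
    intro k
    induction k with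
    | zero => intro y; simp; rfl
    | succ k ih => intro y; rw [pow_succ', pow_succ', rho_mul, ← ih]; rfl
  have h1 : f ^ 23 ^ 1 = 1 := by
    funext y
    apply Subtype.ext
    rw [hf, pow_one, ← h.ord, pow_orderOf_eq_one, map_one]; rfl
  have h2 := Equiv.Perm.card_fixedPoints_modEq h1
  rw [← Nat.card_eq_fintype_card, ← Nat.card_eq_fintype_card, Nat.card_coe_set_eq, Nat.card_coe_set_eq,
    ← Set.ncard_image_of_injective (Function.fixedPoints f) Subtype.val_injective] at h2
  convert h2 using 2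
  ext y
  constructor
  · rintro ⟨h3, h4⟩
    exact ⟨⟨y, h3⟩, Subtype.ext h4, rfl⟩
  · rintro ⟨z, hz, rfl⟩
    exact ⟨z.2, congrArg Subtype.val hz⟩

theorem not_twelve [Finite G] (h : Sh ρ β σ L u 12) : ¬ EvR β L := by
  intro he
  have hn : β u u = 23 / 12 := by simpa using h.norm
  set O := {z | ∃ g, z = ρ g u ∨ z = -ρ g u} with hO
  have hfin : O.Finite := by
    refine ((Set.finite_range fun g => ρ g u).union (Set.finite_range fun g => -ρ g u)).subset ?_
    rintro z ⟨g, rfl | rfl⟩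
    exacts [Or.inl ⟨g, rfl⟩, Or.inr ⟨g, rfl⟩]
  have hOn : ∀ z ∈ O, β z z = 23 / 12 := by
    rintro z ⟨g, rfl | rfl⟩ <;> simp [h.inv, hn]
  have hOg : ∀ g, ∀ z ∈ O, ρ g z ∈ O := by
    rintro g z ⟨k, rfl | rfl⟩
    exacts [⟨g * k, Or.inl (rho_mul ρ g k u).symm⟩, ⟨g * k, Or.inr (by rw [map_neg, rho_mul])⟩]
  have hOneg : ∀ z ∈ O, -z ∈ O := by
    rintro z ⟨k, rfl | rfl⟩
    exacts [⟨k, Or.inr rfl⟩, ⟨k, Or.inl (neg_neg _)⟩]
  let C : ℤ → Set V := fun j => {z | z ∈ O ∧ z - (j : ℚ) • u ∈ L}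
  have hCf : ∀ j, (C j).Finite := fun j => hfin.subset fun z hz => hz.1
  have hCcong : ∀ {i j : ℤ} {z : V}, (12 : ℤ) ∣ i - j → z - (i : ℚ) • u ∈ L → z - (j : ℚ) • u ∈ L := by
    intro i j z hij hz
    convert L.add_mem hz ((h.ordu _).2 hij) using 1
    push_cast; module
  have hCu : ∀ {i j : ℤ}, (i : ℚ) • u - (j : ℚ) • u ∈ L → (12 : ℤ) ∣ i - j := by
    intro i j hij
    refine (h.ordu _).1 ?_
    convert hij using 1
    push_cast; module
  have hfix : ∀ j, ∀ y ∈ C j, ρ σ y = y → (y = u ∧ (12 : ℤ) ∣ 1 - j) ∨ (y = -u ∧ (12 : ℤ) ∣ -1 - j) := by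
    intro j y hy e
    obtain ⟨c, rfl⟩ := h.line y e
    have h1 := hOn _ hy.1
    simp only [map_smul, LinearMap.smul_apply, smul_eq_mul, hn] at h1
    have h2 : (c - 1) * (c + 1) = 0 := by linarith
    rcases mul_eq_zero.1 h2 with a | a
    · obtain rfl : c = 1 := by linarith
      exact Or.inl ⟨one_smul _ _, hCu (by simpa using hy.2)⟩
    · obtain rfl : c = -1 := by linarith
      exact Or.inr ⟨by simp, hCu (by simpa using hy.2)⟩
  have hCs : ∀ j, ∀ y ∈ C j, ρ σ y ∈ C j := fun j y hy =>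
    ⟨hOg σ y hy.1, by simpa [h.fix] using h.stab σ _ hy.2⟩
  have c1 : (C 1).ncard ≡ 1 [MOD 23] := by
    have := h.ev_count _ (hCf 1) (hCs 1)
    rwa [show {y ∈ C 1 | ρ σ y = y} = {u} from ?_, Set.ncard_singleton] at this
    ext y
    constructor
    · rintro ⟨h1, h2⟩
      rcases hfix 1 y h1 h2 with a | a
      · exact a.1
      · exact absurd a.2 (by decide)
    · rintro rfl
      exact ⟨⟨⟨1, Or.inl (by simp)⟩, by simp⟩, h.fix⟩
  have c5 : (C 5).ncard ≡ 0 [MOD 23] := by
    have := h.ev_count _ (hCf 5) (hCs 5)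
    rwa [show {y ∈ C 5 | ρ σ y = y} = ∅ from ?_, Set.ncard_empty] at this
    refine Set.eq_empty_of_forall_notMem ?_
    rintro y ⟨h1, h2⟩
    rcases hfix 5 y h1 h2 with a | a <;> exact absurd a.2 (by decide)
  -- a signed group element acting as `s` on the discriminant group
  have hmap : ∀ (g : G) (e : ℤ) (s i j : ℤ), (e = 1 ∨ e = -1) → ρ g u - (s : ℚ) • u ∈ L → (12 : ℤ) ∣ e * s * i - j →
      (C i).ncard ≤ (C j).ncard := by
    intro g e s i j he1 hs hij
    refine Set.ncard_le_ncard_of_injOn (fun y => (e : ℚ) • ρ g y) (fun y hy => ⟨?_, hCcong hij ?_⟩)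
      (fun y _ y' _ hyy => ?_) (hCf j)
    · rcases he1 with rfl | rfl
      · simpa using hOg g y hy.1
      · simpa using hOneg _ (hOg g y hy.1)
    · convert (IsInt.cast e).smul_mem (L.add_mem (h.stab g _ hy.2) ((IsInt.cast i).smul_mem hs)) using 1
      rw [map_sub, map_smul]; push_cast; module
    · have he0 : (e : ℚ) ≠ 0 := by rcases he1 with rfl | rfl <;> norm_num
      have := congrArg (ρ g⁻¹) (smul_right_injective V he0 hyy)
      rwa [rho_inv', rho_inv'] at this
  have hsub : O ⊆ C 1 ∪ (fun y => -y) '' C 1 := by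
    have key : ∀ g, ρ g u - ((1 : ℤ) : ℚ) • u ∈ L ∨ ρ g u - ((-1 : ℤ) : ℚ) • u ∈ L := by
      intro g
      obtain ⟨s, hs, hs'⟩ := h.exists_sgn he.ev g
      have k2 : (12 : ℤ) ∣ s - 1 ∨ (12 : ℤ) ∣ s - (-1) ∨ (12 : ℤ) ∣ s - 5 ∨ (12 : ℤ) ∣ s - (-5) := by
        have e : s = 12 * (s / 12) + s % 12 := by omega
        have e1 : 0 ≤ s % 12 := by omega
        have e2 : s % 12 < 12 := by omega
        generalize s / 12 = t at e
        generalize s % 12 = r at e e1 e2
        have e3 : s ^ 2 = 24 * (6 * t ^ 2 + t * r) + r ^ 2 := by rw [e]; ring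
        rw [e3] at hs'
        generalize 6 * t ^ 2 + t * r = w at hs'
        push_cast at hs'
        interval_cases r <;> omega
      rcases k2 with k | k | k | k
      · exact Or.inl (hCcong k hs)
      · exact Or.inr (hCcong k hs)
      · have a1 := hmap g 1 5 1 5 (Or.inl rfl) (hCcong k hs) (by decide)
        have a2 := hmap g 1 5 5 1 (Or.inl rfl) (hCcong k hs) (by decide)
        rw [le_antisymm a1 a2] at c1
        exact absurd (c1.symm.trans c5) (by decide)
      · have a1 := hmap g (-1) (-5) 1 5 (Or.inr rfl) (hCcong k hs) (by decide)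
        have a2 := hmap g (-1) (-5) 5 1 (Or.inr rfl) (hCcong k hs) (by decide)
        rw [le_antisymm a1 a2] at c1
        exact absurd (c1.symm.trans c5) (by decide)
    rintro z hz
    obtain ⟨g, rfl | rfl⟩ := id hz
    · rcases key g with k | k
      · exact Or.inl ⟨hz, k⟩
      · exact Or.inr ⟨-ρ g u, ⟨hOneg _ hz, by convert L.neg_mem k using 1; push_cast; module⟩, neg_neg _⟩
    · rcases key g with k | k
      · exact Or.inr ⟨ρ g u, ⟨⟨g, Or.inl rfl⟩, k⟩, rfl⟩
      · exact Or.inl ⟨hz, by convert L.neg_mem k using 1; push_cast; module⟩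
  have c24 : (C 1).ncard ≤ 24 := by
    classical
    rw [Set.ncard_eq_toFinset_card _ (hCf 1)]
    set T := (hCf 1).toFinset with hT
    have hT' : ∀ y ∈ T, y ∈ C 1 := fun y hy => (hCf 1).mem_toFinset.1 hy
    have hip : ∀ y ∈ T, ∀ y' ∈ T, β y y' ≤ (if y = y' then 2 else 0) - 1 / 12 := by
      intro y hy y' hy'
      split_ifs with e
      · rw [← e, hOn y (hT' y hy).1]; norm_num
      · have hm : y - y' ∈ L := by
          convert L.sub_mem (hT' y hy).2 (hT' y' hy').2 using 1; abel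
        obtain ⟨n, hn2⟩ := he.ev _ hm
        have p1 := h.pos _ (sub_ne_zero.2 e)
        have p2 := he.rootless _ hm
        rw [hn2] at p1 p2
        have : (2 : ℤ) ≤ n := by
          have a1 : 0 < n := by exact_mod_cast (by linarith : (0 : ℚ) < n)
          have a2 : n ≠ 1 := fun e => p2 (by simp [e])
          omega
        have : (2 : ℚ) ≤ n := by exact_mod_cast this
        rw [h.toPD.norm_sub, hOn y (hT' y hy).1, hOn y' (hT' y' hy').1] at hn2
        linarith
    have h0 := h.toPD.nonneg (∑ y ∈ T, y)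
    simp only [map_sum, LinearMap.sum_apply] at h0
    have h1 : ∑ y' ∈ T, ∑ y ∈ T, β y y' ≤ ∑ _y' ∈ T, (2 - (T.card : ℚ) / 12) := by
      refine Finset.sum_le_sum fun y' hy' => (Finset.sum_le_sum fun y hy => hip y hy y' hy').trans ?_
      rw [Finset.sum_sub_distrib, Finset.sum_ite_eq', if_pos hy', Finset.sum_const, nsmul_eq_mul]
      linarith
    rw [Finset.sum_const, nsmul_eq_mul] at h1
    by_contra hc
    have : (24 : ℚ) < T.card := by exact_mod_cast not_le.1 hc
    nlinarith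
  have h48 := h.big u h.u_ne
  have b1 := Set.ncard_le_ncard hsub ((hCf 1).union ((hCf 1).image _))
  have b2 := Set.ncard_union_le (C 1) ((fun y => -y) '' C 1)
  have b3 := Set.ncard_image_le (f := fun y => -y) (hCf 1)
  rw [← hO] at h48
  omega

end Sh

theorem evThm : EvThm.{u} := by
  intro G _ _ V _ _ ρ β σ L u d h hsq hqr hr
  rcases Nat.mod_two_eq_zero_or_one d with hd | hd
  · have he : EvR β L := ⟨fun x hx => by
      obtain ⟨n, b, hn, -, e⟩ := h.ev_par hx
      obtain ⟨t, rfl⟩ : ∃ t, d = 2 * t := ⟨d / 2, by omega⟩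
      rw [hn, isEv_cast]
      push_cast at e
      rw [mul_assoc] at e
      omega, hr⟩
    refine ⟨L, u, d, h, he, ?_⟩
    have h12 := h.ev_bound he
    have h4 : ¬ 4 ∣ d := fun a => absurd (hsq 2 a) (by decide)
    have h0 := h.dpos
    interval_cases d <;> first | omega | (exfalso; revert hqr; decide)
  · have h' := h.sh_evp hd
    have he : EvR β (Sh.evp β L u) := ⟨fun x hx => ((h.mem_evp' hd).1 hx).2, fun x hx => hr x hx.1⟩
    refine ⟨_, _, _, h', he, ?_⟩
    have h12 := h'.ev_bound he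
    have : d = 1 ∨ d = 3 := by omega
    rcases this with rfl | rfl
    · norm_num
    · exact absurd he (Sh.not_twelve h')

end CL.F23
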