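/-
Rational groups of degree 23: positive definite forms, orbits of lines, regular simplices of roots.
-/
import Cfsg.Agent.Base

set_option autoImplicit false

namespace CL.Lat23

open Module Finset

variable {V : Type*} [AddCommGroup V] [Module ℚ V] {B : LinearMap.BilinForm ℚ V} {L : AddSubgroup V}

/-- a positive definite symmetric form -/
structure PD (B : LinearMap.BilinForm ℚ V) : Prop where
  symm : ∀ x y, B x y = B y x
  pos : ∀ x, x ≠ 0 → 0 < B x x

theorem PD.nonneg (h : PD B) (x : V) : 0 ≤ B x x := by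
  by_cases e : x = 0
  · simp [e]
  · exact (h.pos x e).le

theorem PD.eq_zero (h : PD B) {x : V} (e : B x x ≤ 0) : x = 0 := by_contra fun c => (h.pos x c).not_ge e

theorem PD.add_sq (h : PD B) (x y : V) : B (x + y) (x + y) = B x x + 2 * B x y + B y y := by
  simp only [map_add, LinearMap.add_apply, h.symm y x]; ring

theorem PD.sub_sq (h : PD B) (x y : V) : B (x - y) (x - y) = B x x - 2 * B x y + B y y := by
  simp only [map_sub, LinearMap.sub_apply, h.symm y x]; ring

/-- an irreducible group of isometries of a space of dimension 23 -/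
structure Irr {G : Type*} [Group G] (B : LinearMap.BilinForm ℚ V) (ρ : Representation ℚ G V) : Prop extends PD B where
  dim : finrank ℚ V = 23
  inv : ∀ g x y, B (ρ g x) (ρ g y) = B x y
  irr : ∀ W : Submodule ℚ V, (∀ g, ∀ w ∈ W, ρ g w ∈ W) → W = ⊥ ∨ W = ⊤

section Key

variable {G : Type*} [Group G] {ρ : Representation ℚ G V}

theorem rho_mul (g k : G) (x : V) : ρ (g * k) x = ρ g (ρ k x) := by rw [map_mul]; rfl
theorem rho_inv (g : G) (x : V) : ρ g⁻¹ (ρ g x) = x := by rw [← rho_mul, inv_mul_cancel, map_one]; rfl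
theorem rho_inv' (g : G) (x : V) : ρ g (ρ g⁻¹ x) = x := by rw [← rho_mul, mul_inv_cancel, map_one]; rfl

theorem Irr.fin (h : Irr B ρ) : FiniteDimensional ℚ V := .of_finrank_pos (by rw [h.dim]; norm_num)

theorem Irr.inv' (h : Irr B ρ) (g : G) (x y : V) : B (ρ g x) y = B x (ρ g⁻¹ y) := by
  rw [← h.inv g x, rho_inv']

theorem Irr.span_orbit (h : Irr B ρ) {y : V} (hy : y ≠ 0) : Submodule.span ℚ (Set.range fun g => ρ g y) = ⊤ :=
  (h.irr _ fun g w hw => by
    refine (Submodule.span_le.2 ?_ : Submodule.span ℚ _ ≤ (Submodule.span ℚ _).comap (ρ g)) hw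
    rintro _ ⟨k, rfl⟩
    exact Submodule.subset_span ⟨g * k, rho_mul g k y⟩).resolve_left fun e =>
      hy ((Submodule.eq_bot_iff _).1 e y (Submodule.subset_span ⟨1, by simp⟩))

/-- the stabiliser of `± y` -/
def pmStab (ρ : Representation ℚ G V) (y : V) : Subgroup G where
  carrier := {g | ρ g y = y ∨ ρ g y = -y}
  one_mem' := Or.inl (by simp)
  mul_mem' := by
    rintro a b (ha | ha) (hb | hb) <;> simp [rho_mul, ha, hb]
  inv_mem' := by
    rintro a (ha | ha)
    · exact Or.inl (by conv_lhs => rw [← ha, rho_inv])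
    · exact Or.inr (by rw [← neg_eq_iff_eq_neg, ← map_neg, ← ha, rho_inv])

/-- if the orbit of `± y` has at most 24 elements, there is a subgroup of index 23 or 24 -/
theorem Irr.key [Finite G] (h : Irr B ρ) {ι : Type*} [Fintype ι] (hι : Fintype.card ι ≤ 24) (e : ι → V) {y : V}
    (hy : y ≠ 0) (ho : ∀ g, ∃ a, ρ g y = e a ∨ ρ g y = -e a) : ∃ H : Subgroup G, H.index = 23 ∨ H.index = 24 := by
  classical
  have := Fintype.ofFinite (G ⧸ pmStab ρ y)
  choose f hf using ho
  have h1 : (pmStab ρ y).index ≤ 24 := by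
    refine le_trans ?_ hι
    rw [Subgroup.index, ← Nat.card_eq_fintype_card]
    refine Nat.card_le_card_of_injective (fun q : G ⧸ pmStab ρ y => f q.out) fun p q e => ?_
    rw [← p.out_eq', ← q.out_eq', QuotientGroup.eq]
    have e1 := hf p.out
    have e2 := hf q.out
    rw [show f p.out = f q.out from e] at e1
    have e3 : ρ q.out y = ρ p.out y ∨ ρ q.out y = -ρ p.out y := by
      rcases e1 with e1 | e1 <;> rcases e2 with e2 | e2 <;> simp [e1, e2]
    exact e3.imp (fun c => by rw [rho_mul, c, rho_inv]) fun c => by rw [rho_mul, c, map_neg, rho_inv]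
  have h2 : 23 ≤ (pmStab ρ y).index := by
    have h3 : Submodule.span ℚ (Set.range fun q : G ⧸ pmStab ρ y => ρ q.out y) = ⊤ := by
      rw [eq_top_iff, ← h.span_orbit hy, Submodule.span_le]
      rintro _ ⟨g, rfl⟩
      obtain ⟨k, hk⟩ := QuotientGroup.mk_out_eq_mul (pmStab ρ y) g
      have h4 : ρ (g : G ⧸ pmStab ρ y).out y ∈ Submodule.span ℚ (Set.range fun q : G ⧸ pmStab ρ y => ρ q.out y) :=
        Submodule.subset_span ⟨_, rfl⟩
      rw [hk, rho_mul] at h4
      rcases k.2 with c | c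
      · rwa [c] at h4
      · rwa [c, map_neg, neg_mem_iff] at h4
    have := finrank_range_le_card (R := ℚ) fun q : G ⧸ pmStab ρ y => ρ q.out y
    rwa [Set.finrank, h3, finrank_top, h.dim, ← Nat.card_eq_fintype_card] at this
  exact ⟨pmStab ρ y, by omega⟩

/-- without subgroups of index 23, 24 every orbit of `± y` has more than 48 vectors -/
theorem Irr.big [Finite G] (h : Irr B ρ) (hn : ∀ H : Subgroup G, H.index ≠ 23 ∧ H.index ≠ 24) {y : V}
    (hy : y ≠ 0) : 48 < Set.ncard {z | ∃ g, z = ρ g y ∨ z = -(ρ g y)} := by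
  classical
  by_contra c
  have := Fintype.ofFinite (G ⧸ pmStab ρ y)
  have hf : Set.Finite {z | ∃ g, z = ρ g y ∨ z = -(ρ g y)} :=
    ((Set.finite_range fun g => ρ g y).union (Set.finite_range fun g => -(ρ g y))).subset (by
      rintro _ ⟨g, rfl | rfl⟩
      exacts [.inl ⟨g, rfl⟩, .inr ⟨g, rfl⟩])
  have n0 : ∀ g, ρ g y ≠ -ρ g y := fun g e => hy (by
    have : (2 : ℚ) • ρ g y = 0 := by rw [two_smul]; exact eq_neg_iff_add_eq_zero.1 e
    rw [← rho_inv (ρ := ρ) g y, (smul_eq_zero.1 this).resolve_left two_ne_zero, map_zero])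
  have q1 : ∀ p q : G ⧸ pmStab ρ y, ρ q.out y = ρ p.out y ∨ ρ q.out y = -ρ p.out y → p = q := fun p q e => by
    rw [← p.out_eq', ← q.out_eq', QuotientGroup.eq]
    exact e.imp (fun c => by rw [rho_mul, c, rho_inv]) fun c => by rw [rho_mul, c, map_neg, rho_inv]
  have h1 := Set.ncard_le_ncard_of_injOn (s := (Set.univ : Set ((G ⧸ pmStab ρ y) × Bool)))
    (t := {z | ∃ g, z = ρ g y ∨ z = -(ρ g y)})
    (fun x => if x.2 then ρ x.1.out y else -ρ x.1.out y)
    (fun x _ => ⟨x.1.out, by cases x.2 <;> simp⟩) (by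
      rintro ⟨p, a⟩ - ⟨q, b⟩ - e
      cases a <;> cases b <;> simp only [Bool.false_eq_true, if_true, if_false, neg_inj] at e
      · rw [q1 p q (.inl e.symm)]
      · obtain rfl := q1 p q (.inr e.symm)
        exact (n0 _ e.symm).elim
      · obtain rfl := q1 q p (.inr e)
        exact (n0 _ e).elim
      · rw [q1 p q (.inl e.symm)]) hf
  rw [Set.ncard_univ, Nat.card_prod, Nat.card_eq_fintype_card, Nat.card_eq_fintype_card, Fintype.card_bool] at h1
  obtain ⟨H, e⟩ := h.key (ι := G ⧸ pmStab ρ y) (by omega) (fun q => ρ q.out y) hy fun g => by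
    obtain ⟨k, hk⟩ := QuotientGroup.mk_out_eq_mul (pmStab ρ y) g
    refine ⟨g, ?_⟩
    rw [hk, rho_mul]
    exact k.2.imp (fun c => by rw [c]) fun c => by rw [c, map_neg, neg_neg]
  exact e.elim (hn H).1 (hn H).2

/-- a subspace whose conjugates are equal or orthogonal -/
theorem Irr.block [Finite G] (h : Irr B ρ) {U : Submodule ℚ V} (h0 : U ≠ ⊥)
    (hU : ∀ g, (∀ u ∈ U, ρ g u ∈ U) ∨ ∀ u ∈ U, ∀ w ∈ U, B (ρ g u) w = 0) :
    U = ⊤ ∨ ∃ H : Subgroup G, H.index = 23 := by
  classical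
  have := h.fin
  let H : Subgroup G :=
    { carrier := {g | ∀ u ∈ U, ρ g u ∈ U}
      one_mem' := fun u hu => by simpa using hu
      mul_mem' := fun ha hb u hu => by rw [rho_mul]; exact ha _ (hb u hu)
      inv_mem' := fun {g} hg u hu => (hU g⁻¹).elim (· u hu) fun c => by
        rw [h.eq_zero (x := u) (by rw [← c _ (hg u hu) u hu, rho_inv]), map_zero]; exact zero_mem _ }
  have := Fintype.ofFinite (G ⧸ H)
  let W : G ⧸ H → Submodule ℚ V := fun q => U.map (ρ q.out)
  have hW : ∀ p q, p ≠ q → ∀ x ∈ W p, ∀ y ∈ W q, B x y = 0 := by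
    rintro p q c _ ⟨x, hx, rfl⟩ _ ⟨y, hy, rfl⟩
    rw [h.symm, h.inv', h.symm, ← rho_mul]
    refine (hU _).resolve_left (fun d => c ?_) x hx y hy
    rw [← p.out_eq', ← q.out_eq', eq_comm, QuotientGroup.eq]
    exact d
  have h1 : iSupIndep W := fun p => Submodule.disjoint_def.2 fun x hx hx' => h.eq_zero (le_of_eq
    ((iSup₂_le fun q c y hy => hW p q (Ne.symm c) x hx y hy : _ ≤ LinearMap.ker (B x)) hx'))
  have h2 : iSup W = ⊤ := by
    obtain ⟨y, hy, y0⟩ := U.ne_bot_iff.1 h0
    rw [eq_top_iff, ← h.span_orbit y0, Submodule.span_le]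
    rintro _ ⟨g, rfl⟩
    obtain ⟨k, hk⟩ := QuotientGroup.mk_out_eq_mul H g
    exact le_iSup W (g : G ⧸ H) ⟨_, (inv_mem k.2 :) y hy, by rw [hk, rho_mul, rho_inv']⟩
  have h3 := (LinearEquiv.ofBijective (DirectSum.coeLinearMap W)
    (DirectSum.isInternal_submodule_of_iSupIndep_of_iSup_eq_top h1 h2)).finrank_eq
  have h4 : ∀ q, finrank ℚ (W q) = finrank ℚ U := fun q =>
    (Submodule.equivMapOfInjective _ (Function.LeftInverse.injective (rho_inv q.out)) U).finrank_eq.symm
  rw [finrank_directSum, h.dim, sum_congr rfl fun q _ => h4 q, sum_const, card_univ, smul_eq_mul] at h3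
  rcases (Nat.dvd_prime (by norm_num)).1 (Dvd.intro_left _ h3) with e | e
  · exact .inr ⟨H, by rw [Subgroup.index, Nat.card_eq_fintype_card]; simpa [e] using h3⟩
  · exact .inl (Submodule.eq_top_of_finrank_eq (e.trans h.dim.symm))

end Key

theorem exists_max {α : Type*} {Q : Finset α → Prop} {N : ℕ} (h0 : ∃ s, Q s) (hb : ∀ s, Q s → s.card ≤ N) :
    ∃ s, Q s ∧ ∀ t, Q t → t.card ≤ s.card := by
  classical
  obtain ⟨s, hs⟩ := h0
  obtain ⟨t, ht, e⟩ := Nat.findGreatest_spec (P := fun n => ∃ s, Q s ∧ s.card = n) (hb s hs) ⟨s, hs, rfl⟩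
  exact ⟨t, ht, fun u hu => e ▸ Nat.le_findGreatest (hb u hu) ⟨u, hu, rfl⟩⟩

section Simplex

variable {ι : Type*} [Fintype ι] [DecidableEq ι] {p : ι → V}

/-- linear combinations of the vertices -/
noncomputable def lc (p : ι → V) : (ι → ℚ) →ₗ[ℚ] V := Fintype.linearCombination ℚ p

omit [DecidableEq ι] in
theorem lc_apply (x : ι → ℚ) : lc p x = ∑ a, x a • p a := rfl

theorem lc_single (a : ι) : lc p (Pi.single a 1) = p a := by simp [lc]

/-- coefficient vectors with sum zero -/
def Z0 (ι : Type*) [Fintype ι] : Submodule ℚ (ι → ℚ) := LinearMap.ker (∑ a, LinearMap.proj a : (ι → ℚ) →ₗ[ℚ] ℚ)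

omit [DecidableEq ι] in
theorem mem_Z0 {x : ι → ℚ} : x ∈ Z0 ι ↔ ∑ a, x a = 0 := by simp [Z0]

theorem finrank_Z0 [Nonempty ι] : finrank ℚ (Z0 ι) + 1 = Fintype.card ι := by
  have h := LinearMap.finrank_range_add_finrank_ker (∑ a, LinearMap.proj a : (ι → ℚ) →ₗ[ℚ] ℚ)
  rw [LinearMap.range_eq_top.2 fun c => ⟨Pi.single (Classical.arbitrary ι) c, by simp [Pi.single_apply]⟩,
    finrank_top, finrank_self, finrank_fintype_fun_eq_card] at h
  rw [Z0]; omega

/-- the span of the edges -/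
noncomputable def AA (p : ι → V) : Submodule ℚ V := (Z0 ι).map (lc p)

theorem sub_mem_AA (a b : ι) : p a - p b ∈ AA p :=
  ⟨Pi.single a 1 - Pi.single b 1, mem_Z0.2 (by simp [sum_sub_distrib]), by rw [map_sub, lc_single, lc_single]⟩

omit [DecidableEq ι] in
theorem AA_le {W : Submodule ℚ V} (a : ι) (h : ∀ b, p a - p b ∈ W) : AA p ≤ W := by
  rintro _ ⟨x, hx, rfl⟩
  have : lc p x = -∑ b, x b • (p a - p b) := by
    simp only [smul_sub, sum_sub_distrib, ← sum_smul, mem_Z0.1 hx, zero_smul, lc_apply]; simp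
  rw [this]
  exact neg_mem (sum_mem fun b _ => W.smul_mem _ (h b))

/-- the Gram matrix -/
theorem gram (h : PD B) (hp : ∀ a b, a ≠ b → B (p a - p b) (p a - p b) = 2) {x y : ι → ℚ} (hx : ∑ a, x a = 0)
    (hy : ∑ a, y a = 0) : B (lc p x) (lc p y) = ∑ a, x a * y a := by
  have e : ∀ a b, B (p a) (p b) = B (p a) (p a) / 2 - 1 + (B (p b) (p b) / 2 + if a = b then 1 else 0) := fun a b => by
    split_ifs with c
    · rw [c]; ring
    · have := hp a b c
      rw [h.sub_sq] at this
      linarith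
  calc _ = ∑ a, x a * ∑ b, y b * B (p a) (p b) := by
        simp only [lc_apply, map_sum, LinearMap.sum_apply, map_smul, LinearMap.smul_apply, smul_eq_mul, mul_sum]
        exact sum_comm.trans (sum_congr rfl fun a _ => sum_congr rfl fun b _ => by ring)
    _ = ∑ a, x a * (∑ b, y b * (B (p b) (p b) / 2) + y a) := sum_congr rfl fun a _ => by
        rw [sum_congr rfl fun b _ => by rw [e a b, mul_add, mul_add]]
        simp only [sum_add_distrib, ← sum_mul, hy, mul_ite, mul_one, mul_zero, sum_ite_eq, mem_univ, if_true,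
          zero_mul, zero_add]
    _ = _ := by simp only [mul_add, sum_add_distrib, ← sum_mul, hx, zero_mul, zero_add]

theorem finrank_AA [Nonempty ι] (h : PD B) (hp : ∀ a b, a ≠ b → B (p a - p b) (p a - p b) = 2) :
    finrank ℚ (AA p) + 1 = Fintype.card ι := by
  rw [← finrank_Z0, AA, ← LinearMap.range_domRestrict, LinearMap.finrank_range_of_inj]
  rw [← LinearMap.ker_eq_bot, LinearMap.ker_eq_bot']
  intro x hx
  have := gram h hp (mem_Z0.1 x.2) (mem_Z0.1 x.2)
  rw [show lc p x = 0 from hx, map_zero, eq_comm, sum_eq_zero_iff_of_nonneg fun a _ => mul_self_nonneg _] at this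
  exact Subtype.ext (funext fun a => mul_self_eq_zero.1 (this a (mem_univ a)))

end Simplex

end CL.Lat23
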