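/-
Rational groups of degree 23: an invariant integral lattice with a root gives a subgroup of index 23 or 24.
-/
import Cfsg.Agent.Lat.Root0

set_option autoImplicit false
set_option linter.unusedSectionVars false

namespace CL.Lat23

open Module Finset

variable {V : Type*} [AddCommGroup V] [Module ℚ V] {B : LinearMap.BilinForm ℚ V} {L : AddSubgroup V} {r s t : V}

/-- an integral lattice -/
structure Itg (B : LinearMap.BilinForm ℚ V) (L : AddSubgroup V) : Prop extends PD B where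
  int : ∀ x ∈ L, ∀ y ∈ L, ∃ k : ℤ, B x y = k

/-- a root -/
def Rt (B : LinearMap.BilinForm ℚ V) (L : AddSubgroup V) (r : V) : Prop := r ∈ L ∧ B r r = 2

theorem Rt.neg (hr : Rt B L r) : Rt B L (-r) := ⟨neg_mem hr.1, by simpa using hr.2⟩

theorem Itg.le_one (h : Itg B L) (hr : Rt B L r) (hs : Rt B L s) (e : r ≠ s) : B r s ≤ 1 := by
  obtain ⟨k, hk⟩ := h.int r hr.1 s hs.1
  have := h.pos _ (sub_ne_zero.2 e)
  rw [h.sub_sq, hr.2, hs.2, hk] at this
  have : k < 2 := by exact_mod_cast (by linarith : (k : ℚ) < 2)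
  rw [hk]; exact_mod_cast (by omega : k ≤ 1)

theorem Itg.eq_neg (h : Itg B L) (hr : Rt B L r) (hs : Rt B L s) (e : B r s ≤ -2) : s = -r :=
  eq_neg_of_add_eq_zero_right (h.eq_zero (by rw [h.add_sq, hr.2, hs.2]; linarith))

theorem Itg.refl (h : Itg B L) (hr : Rt B L r) (ht : Rt B L t) : Rt B L (r - B r t • t) := by
  refine ⟨sub_mem hr.1 ?_, ?_⟩
  · obtain ⟨k, hk⟩ := h.int r hr.1 t ht.1
    rw [hk, Int.cast_smul_eq_zsmul]; exact zsmul_mem ht.1 k
  · simp only [h.sub_sq, hr.2, map_smul, LinearMap.smul_apply, smul_eq_mul, ht.2]; ring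

variable {ι : Type*} [Fintype ι] [DecidableEq ι] {p : ι → V} {S T : Finset ι}

/-- indicator function -/
def chi (S : Finset ι) : ι → ℚ := fun a => if a ∈ S then 1 else 0

theorem sum_chi_mul (S : Finset ι) (x : ι → ℚ) : ∑ a, chi S a * x a = ∑ a ∈ S, x a := by simp [chi]
theorem sum_chi (S T : Finset ι) : ∑ a ∈ S, chi T a = (S ∩ T).card := by simp [chi]
theorem sum_chi' (T : Finset ι) : ∑ a, chi T a = T.card := by simp [chi]
theorem lc_chi (S : Finset ι) : lc p (chi S) = ∑ a ∈ S, p a := by simp [lc_apply, chi]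
theorem chi_single (a : ι) : chi {a} = Pi.single a 1 := funext fun b => by simp [chi, Pi.single_apply]

theorem two_val [Nonempty ι] {c : ι → ℚ} (h : ∀ a b, c a - c b ≤ 1 ∧ ∃ k : ℤ, c a - c b = k) :
    ∃ c0 S, ∀ a, c a = c0 + chi S a := by
  obtain ⟨a, -, ha⟩ := exists_max_image univ c univ_nonempty
  refine ⟨c a - 1, univ.filter fun b => c b = c a, fun b => ?_⟩
  simp only [chi, mem_filter, mem_univ, true_and]
  split_ifs with e
  · rw [e]; ring
  · obtain ⟨h1, k, hk⟩ := h a b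
    have h2 : (0 : ℚ) < k := hk ▸ sub_pos.2 (lt_of_le_of_ne (ha b (mem_univ b)) e)
    have h3 : k = 1 := by
      have : 0 < k := by exact_mod_cast h2
      have : k ≤ 1 := by exact_mod_cast hk ▸ h1
      omega
    rw [h3] at hk; push_cast at hk; linarith

/-- the centred indicator function -/
noncomputable def cen (S : Finset ι) : ι → ℚ := fun a => chi S a - S.card / Fintype.card ι

theorem sum_cen [Nonempty ι] (S : Finset ι) : ∑ a, cen S a = 0 := by
  have : (Fintype.card ι : ℚ) ≠ 0 := Nat.cast_ne_zero.2 Fintype.card_ne_zero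
  simp only [cen, sum_sub_distrib, sum_chi', sum_const, card_univ, nsmul_eq_mul]; field_simp; ring

theorem sum_cen' (S T : Finset ι) : ∑ a ∈ S, cen T a = (S ∩ T).card - S.card * T.card / Fintype.card ι := by
  simp only [cen, sum_sub_distrib, sum_chi, sum_const, nsmul_eq_mul]; ring

theorem sum_cen_mul (S : Finset ι) {x : ι → ℚ} (hx : ∑ a, x a = 0) : ∑ a, cen S a * x a = ∑ a ∈ S, x a := by
  simp only [cen, sub_mul, sum_sub_distrib, sum_chi_mul, ← mul_sum, hx, mul_zero, sub_zero]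

theorem sum_mv (e : T.card = S.card) : ∑ a, (chi T - chi S) a = 0 := by
  simp only [Pi.sub_apply, sum_sub_distrib, sum_chi', e, sub_self]

theorem sum_edge (a b : ι) : ∑ c, (chi {a} - chi {b}) c = 0 := sum_mv (by simp)
theorem lc_edge (a b : ι) : lc p (chi {a} - chi {b}) = p a - p b := by simp [lc_chi]

/-- `r` is a root with the pattern `S` on the simplex -/
def Nb (B : LinearMap.BilinForm ℚ V) (L : AddSubgroup V) (p : ι → V) (r : V) (S : Finset ι) : Prop :=
  Rt B L r ∧ ∃ c, ∀ a, B r (p a) = c + chi S a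

theorem Nb.lc (h : Nb B L p r S) {x : ι → ℚ} (hx : ∑ a, x a = 0) : B r (lc p x) = ∑ a ∈ S, x a := by
  obtain ⟨c, hc⟩ := h.2
  simp only [lc_apply, map_sum, map_smul, smul_eq_mul, hc, mul_add, sum_add_distrib, ← sum_mul, hx, zero_mul,
    zero_add, mul_comm _ (chi S _), sum_chi_mul]

theorem Nb.neg (h : Nb B L p r S) : Nb B L p (-r) Sᶜ := ⟨h.1.neg, let ⟨c, hc⟩ := h.2; ⟨-c - 1, fun a => by
  simp only [map_neg, LinearMap.neg_apply, hc, chi, mem_compl]; split_ifs <;> ring⟩⟩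

/-- a regular simplex of maximal size whose edges are roots -/
structure Sx (B : LinearMap.BilinForm ℚ V) (L : AddSubgroup V) (p : ι → V) : Prop extends Itg B L where
  mem : ∀ a, p a ∈ L
  two : ∀ a b, a ≠ b → B (p a - p b) (p a - p b) = 2
  max : ∀ s : Finset V, (∀ a ∈ s, a ∈ L) → (∀ a ∈ s, ∀ b ∈ s, a ≠ b → B (a - b) (a - b) = 2) →
    s.card ≤ Fintype.card ι

namespace Sx

variable [Nonempty ι] (h : Sx B L p)
include h

theorem gr {x y : ι → ℚ} (hx : ∑ a, x a = 0) (hy : ∑ a, y a = 0) : B (lc p x) (lc p y) = ∑ a, x a * y a :=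
  gram h.toPD h.two hx hy

theorem edge {a b : ι} (e : a ≠ b) : Rt B L (p a - p b) := ⟨sub_mem (h.mem a) (h.mem b), h.two a b e⟩

theorem lc_edge' {x : ι → ℚ} (hx : ∑ a, x a = 0) (a b : ι) : B (lc p x) (p a - p b) = x a - x b := by
  rw [← lc_edge, h.gr hx (sum_edge a b)]
  simp [mul_sub, chi]

theorem classify (hr : Rt B L r) : (∃ a b, a ≠ b ∧ r = p a - p b) ∨ ∃ S, Nb B L p r S := by
  refine (em _).imp_right fun c => ?_
  obtain ⟨c0, S, e⟩ := two_val (c := fun a => B r (p a)) fun a b => by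
    rw [← map_sub]
    refine ⟨?_, h.int _ hr.1 _ (sub_mem (h.mem a) (h.mem b))⟩
    by_cases e : a = b
    · simp [e]
    · exact h.le_one hr (h.edge e) fun d => c ⟨a, b, e, d⟩
  exact ⟨S, hr, c0, e⟩

theorem move (hr : Nb B L p r S) (e : T.card = S.card) : Nb B L p (r + lc p (chi T - chi S)) T := by
  refine ⟨⟨add_mem hr.1.1 ?_, ?_⟩, ?_⟩
  · rw [map_sub, lc_chi, lc_chi]
    exact sub_mem (sum_mem fun a _ => h.mem a) (sum_mem fun a _ => h.mem a)
  · rw [h.add_sq, hr.1.2, hr.lc (sum_mv e), h.gr (sum_mv e) (sum_mv e)]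
    simp only [Pi.sub_apply, sub_mul, sum_sub_distrib, sum_chi_mul, sum_chi, inter_self, inter_comm T S, e]
    ring
  · obtain ⟨c, hc⟩ := hr.2
    obtain ⟨b⟩ := ‹Nonempty ι›
    refine ⟨c + B (lc p (chi T - chi S)) (p b) - (chi T b - chi S b), fun a => ?_⟩
    have := h.lc_edge' (sum_mv e) a b
    rw [map_sub] at this
    simp only [map_add, LinearMap.add_apply, hc, Pi.sub_apply] at this ⊢
    linarith

theorem inj : Function.Injective p := fun a b e => by_contra fun c => by simpa [e] using h.two a b c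

theorem ne_one (hr : Nb B L p r S) : S.card ≠ 1 := fun e => by
  classical
  obtain ⟨a, rfl⟩ := card_eq_one.1 e
  have key : ∀ b, B (p a - r - p b) (p a - r - p b) = 2 := fun b => by
    rw [sub_right_comm, h.sub_sq, hr.1.2, h.symm _ r, ← lc_edge, hr.lc (sum_edge a b), lc_edge]
    by_cases c : a = b
    · simp [c]
    · rw [h.two a b c]; simp [chi, c, Ne.symm c]
  have := h.max (insert (p a - r) (univ.image p)) (fun x hx => ?_) fun x hx y hy c => ?_
  · rw [card_insert_of_notMem, card_image_of_injective _ h.inj, card_univ] at this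
    · omega
    · intro c
      obtain ⟨b, -, c⟩ := mem_image.1 c
      simpa [c] using key b
  · rcases mem_insert.1 hx with rfl | hx
    · exact sub_mem (h.mem a) hr.1.1
    · obtain ⟨b, -, rfl⟩ := mem_image.1 hx
      exact h.mem b
  · simp only [mem_insert, mem_image, mem_univ, true_and] at hx hy
    rcases hx with rfl | ⟨b, rfl⟩ <;> rcases hy with rfl | ⟨d, rfl⟩
    · exact (c rfl).elim
    · exact key d
    · rw [← neg_sub]; simpa only [map_neg, LinearMap.neg_apply, neg_neg] using key b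
    · exact h.two b d fun e => c (congrArg p e)

theorem cen_cen (S T : Finset ι) : B (lc p (cen S)) (lc p (cen T)) =
    (S ∩ T).card - S.card * T.card / Fintype.card ι := by
  rw [h.gr (sum_cen S) (sum_cen T), sum_cen_mul S (sum_cen T), sum_cen']

theorem bound (hr : Nb B L p r S) : S.card * Fintype.card ι ≤ 2 * Fintype.card ι + S.card * S.card := by
  have h0 : (0 : ℚ) < Fintype.card ι := Nat.cast_pos.2 Fintype.card_pos
  have := h.nonneg (r - lc p (cen S))
  rw [h.sub_sq, hr.1.2, hr.lc (sum_cen S), h.cen_cen, sum_cen', inter_self] at this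
  have h1 : (S.card : ℚ) - 2 ≤ S.card * S.card / Fintype.card ι := by linarith
  rw [le_div_iff₀ h0] at h1
  exact_mod_cast (by linarith : (S.card * Fintype.card ι : ℚ) ≤ 2 * Fintype.card ι + S.card * S.card)

/-- a root that is not orthogonal to the simplex -/
theorem types (hr : Rt B L r) {a b : ι} (e : B r (p a - p b) ≠ 0) : (∃ a b, a ≠ b ∧ r = p a - p b) ∨
    ∃ S : Finset ι, (Nb B L p r S ∨ Nb B L p (-r) S) ∧ 2 * S.card ≤ Fintype.card ι ∧ 2 ≤ S.card ∧ S.card ≤ 4 := by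
  refine (h.classify hr).imp_right fun ⟨S, hS⟩ => ?_
  have key : ∀ {r S}, Nb B L p r S → B r (p a - p b) ≠ 0 → 2 * S.card ≤ Fintype.card ι →
      2 ≤ S.card ∧ S.card ≤ 4 := fun {r S} hS e c => by
    have h1 := h.ne_one hS
    have h2 : S.card ≠ 0 := fun d => e (by rw [← lc_edge, hS.lc (sum_edge a b), card_eq_zero.1 d, sum_empty])
    have h3 := h.bound hS
    exact ⟨by omega, by nlinarith⟩
  by_cases c : 2 * S.card ≤ Fintype.card ι
  · exact ⟨S, .inl hS, c, key hS e c⟩
  · have c' : 2 * Sᶜ.card ≤ Fintype.card ι := by rw [card_compl]; omega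
    exact ⟨Sᶜ, .inr hS.neg, c', key hS.neg (by simpa only [map_neg, LinearMap.neg_apply, neg_ne_zero] using e) c'⟩

omit h [Nonempty ι] in
theorem mv_mem (e : T.card = S.card) : lc p (chi T - chi S) ∈ AA p := ⟨_, mem_Z0.2 (sum_mv e), rfl⟩

theorem uniq {W : Submodule ℚ V} (hr : Nb B L p r S) (hs : Nb B L p s S) (c : 2 * S.card ≤ Fintype.card ι)
    (e : B r s + 2 ≤ S.card) (hW : r ∈ W) : s ∈ AA p ⊔ W := by
  obtain ⟨T, h1, h2⟩ := exists_subset_card_eq (s := Sᶜ) (n := S.card) (by rw [card_compl]; omega)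
  have h3 := h.eq_neg hr.1 (h.move hs h2).1 (by
    rw [map_add, hr.lc (sum_mv h2)]
    simp only [Pi.sub_apply, sum_sub_distrib, sum_chi, inter_self]
    rw [disjoint_iff_inter_eq_empty.1 (disjoint_compl_right.mono_right h1)]
    simp only [card_empty, Nat.cast_zero]
    linarith)
  rw [eq_sub_of_add_eq h3]
  exact sub_mem (neg_mem (Submodule.mem_sup_right hW)) (Submodule.mem_sup_left (mv_mem h2))

theorem rep {k : ℕ} (hk : 3 ≤ k) : ∃ r0, ∀ r S, Nb B L p r S → S.card = k → 2 * k ≤ Fintype.card ι →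
    r ∈ AA p ⊔ Submodule.span ℚ {r0} := by
  by_cases c : ∃ r S, Nb B L p r S ∧ S.card = k
  · obtain ⟨r0, S0, h0, rfl⟩ := c
    refine ⟨r0, fun r S hr e c => (add_mem_cancel_right (Submodule.mem_sup_left (mv_mem e.symm))).1 ?_⟩
    by_cases d : r0 = r + lc p (chi S0 - chi S)
    · exact d ▸ Submodule.mem_sup_right (Submodule.mem_span_singleton_self r0)
    · have := h.le_one h0.1 (h.move hr e.symm).1 d
      have : (3 : ℚ) ≤ S0.card := by exact_mod_cast hk
      exact h.uniq h0 (h.move hr e.symm) c (by linarith) (Submodule.mem_span_singleton_self r0)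
  · exact ⟨0, fun r S hr e => (c ⟨r, S, hr, e⟩).elim⟩

theorem rep2 : ∃ C : Finset V, C.card + 1 ≤ Fintype.card ι ∧ ∀ r S, Nb B L p r S → S.card = 2 →
    4 ≤ Fintype.card ι → r ∈ AA p ⊔ Submodule.span ℚ (C : Set V) := by
  classical
  by_cases c : ∃ r S, Nb B L p r S ∧ S.card = 2
  swap
  · exact ⟨∅, Fintype.card_pos, fun r S hr e => (c ⟨r, S, hr, e⟩).elim⟩
  obtain ⟨-, S0, -, h0⟩ := c
  have hb : ∀ C : Finset V, ((∀ r ∈ C, Nb B L p r S0) ∧ ∀ r ∈ C, ∀ s ∈ C, r ≠ s → B r s = 1) →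
      C.card + 1 ≤ Fintype.card ι := fun C ⟨h1, h2⟩ => by
    rw [← card_insert_of_notMem (a := 0) fun c => by simpa using (h1 0 c).1.2]
    refine h.max _ (fun x hx => (mem_insert.1 hx).elim (· ▸ zero_mem _) fun hx => (h1 x hx).1.1) fun x hx y hy c => ?_
    rcases mem_insert.1 hx with rfl | hx <;> rcases mem_insert.1 hy with rfl | hy
    · exact (c rfl).elim
    · simpa using (h1 y hy).1.2
    · simpa using (h1 x hx).1.2
    · rw [h.sub_sq, (h1 x hx).1.2, (h1 y hy).1.2, h2 x hx y hy c]; ring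
  obtain ⟨C, hC, hm⟩ := exists_max (N := Fintype.card ι) ⟨∅, by simp⟩ fun C c => (Nat.le_succ _).trans (hb C c)
  refine ⟨C, hb C hC, fun r S hr e c => ?_⟩
  have e' := h0.trans e.symm
  refine (add_mem_cancel_right (Submodule.mem_sup_left (mv_mem e'))).1 ?_
  have h1 := h.move hr e'
  generalize r + lc p (chi S0 - chi S) = t at h1
  by_cases d : t ∈ C
  · exact Submodule.mem_sup_right (Submodule.subset_span d)
  obtain ⟨s, hs, d'⟩ : ∃ s ∈ C, B s t ≠ 1 := by
    by_contra! d'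
    have := hm (insert t C) ⟨fun x hx => (mem_insert.1 hx).elim (· ▸ h1) (hC.1 x), fun x hx y hy c => by
      rcases mem_insert.1 hx with rfl | hx' <;> rcases mem_insert.1 hy with rfl | hy'
      exacts [(c rfl).elim, h.symm _ _ ▸ d' y hy', d' x hx', hC.2 x hx' y hy' c]⟩
    rw [card_insert_of_notMem d] at this
    omega
  obtain ⟨k, hk⟩ := h.int s (hC.1 s hs).1.1 t h1.1.1
  have h2 := h.le_one (hC.1 s hs).1 h1.1 fun e => d (e ▸ hs)
  have h3 : k ≤ 0 := by
    have : k ≤ 1 := by exact_mod_cast hk ▸ h2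
    have : k ≠ 1 := fun e => d' (by rw [hk, e]; rfl)
    omega
  have h4 : (k : ℚ) ≤ 0 := by exact_mod_cast h3
  exact h.uniq (hC.1 s hs) h1 (by omega) (by rw [h0, hk]; push_cast; linarith) (Submodule.subset_span hs)

theorem uniq2 (hn : 9 ≤ Fintype.card ι) (hr : Nb B L p r S) (hs : Nb B L p s S) (e : S.card = 2) : r = s := by
  by_contra c
  have h1 := h.le_one hr.1 hs.1 c
  have h2 := h.nonneg (r - lc p (cen S) + (s - lc p (cen S)))
  have h3 := hr.lc (sum_cen S)
  have h4 := hs.lc (sum_cen S)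
  have h5 := h.cen_cen S S
  rw [sum_cen'] at h3 h4
  rw [inter_self, e] at h3 h4 h5
  have h6 : (2 : ℚ) * 2 / Fintype.card ι ≤ 4 / 9 := by
    rw [div_le_div_iff₀ (Nat.cast_pos.2 Fintype.card_pos) (by norm_num)]
    have : (9 : ℚ) ≤ Fintype.card ι := by exact_mod_cast hn
    linarith
  simp only [map_add, map_sub, LinearMap.add_apply, LinearMap.sub_apply, h.symm (lc p (cen S)) r,
    h.symm (lc p (cen S)) s, h.symm s r, hr.1.2, hs.1.2, h3, h4, h5] at h2
  push_cast at h2
  linarith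

end Sx

/-- the span of the roots that are not orthogonal to the simplex -/
def UU (B : LinearMap.BilinForm ℚ V) (L : AddSubgroup V) (p : ι → V) : Submodule ℚ V :=
  Submodule.span ℚ {r | Rt B L r ∧ ∃ a b, B r (p a - p b) ≠ 0}

/-- every root lies in `W` or is orthogonal to it -/
def Cl (B : LinearMap.BilinForm ℚ V) (L : AddSubgroup V) (W : Submodule ℚ V) : Prop :=
  ∀ r, Rt B L r → r ∈ W ∨ ∀ w ∈ W, B r w = 0

namespace Sx

variable [Nonempty ι] (h : Sx B L p)
include h

theorem cl : Cl B L (UU B L p) := fun t ht => by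
  by_cases c : ∃ a b, B t (p a - p b) ≠ 0
  · exact .inl (Submodule.subset_span ⟨ht, c⟩)
  refine or_iff_not_imp_left.2 fun d => ?_
  refine (Submodule.span_le.2 ?_ : UU B L p ≤ LinearMap.ker (B t))
  rintro r ⟨hr, a, b, e⟩
  by_contra d'
  have h1 : r - B r t • t ∈ UU B L p := Submodule.subset_span ⟨h.refl hr ht, a, b, by
    rwa [map_sub B, LinearMap.sub_apply, map_smul, LinearMap.smul_apply, not_not.1 fun e => c ⟨a, b, e⟩, smul_zero,
      sub_zero]⟩
  have h2 : r ∈ UU B L p := Submodule.subset_span ⟨hr, a, b, e⟩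
  exact d ((Submodule.smul_mem_iff _ fun c => d' ((h.symm t r).trans c)).1 ((Submodule.sub_mem_iff_right _ h2).1 h1))

theorem conn {W : Submodule ℚ V} (hW : Cl B L W) : UU B L p ≤ W ∨ ∀ u ∈ UU B L p, ∀ w ∈ W, B u w = 0 := by
  by_cases c : ∃ r ∈ W, Rt B L r ∧ ∃ a b, B r (p a - p b) ≠ 0
  · obtain ⟨r, h1, -, a, b, h2⟩ := c
    have ab : a ≠ b := fun e => h2 (by simp [e])
    have h3 : p a - p b ∈ W := (hW _ (h.edge ab)).resolve_right fun e => h2 (h.symm _ _ ▸ e r h1)
    have h4 : AA p ≤ W := AA_le a fun d => by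
      by_cases e : a = d
      · simp [e]
      refine (hW _ (h.edge e)).resolve_right fun e' => ?_
      have := e' _ h3
      rw [← lc_edge a d, h.lc_edge' (sum_edge a d)] at this
      simp only [Pi.sub_apply, chi, mem_singleton, if_true, if_neg e, if_neg ab.symm] at this
      split_ifs at this <;> norm_num at this
    exact .inl (Submodule.span_le.2 fun t ⟨ht, x, y, e⟩ => (hW t ht).resolve_right fun e' =>
      e (e' _ (h4 (sub_mem_AA x y))))
  · refine .inr fun u hu w hw => h.symm w u ▸ (Submodule.span_le.2 ?_ : UU B L p ≤ LinearMap.ker (B w)) hu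
    rintro r ⟨hr, e⟩
    exact (h.symm w r).trans ((hW r hr).resolve_left (fun d => c ⟨r, d, hr, e⟩) w hw)

theorem twelve [FiniteDimensional ℚ V] (hd : finrank ℚ V = 23) (hU : UU B L p = ⊤) : 12 ≤ Fintype.card ι := by
  classical
  obtain ⟨C, hC, h2⟩ := h.rep2
  obtain ⟨r3, h3⟩ := h.rep (k := 3) le_rfl
  obtain ⟨r4, h4⟩ := h.rep (k := 4) (by norm_num)
  have key : ∀ r S, Nb B L p r S → 2 * S.card ≤ Fintype.card ι → 2 ≤ S.card → S.card ≤ 4 →
      r ∈ AA p ⊔ Submodule.span ℚ (insert r3 (insert r4 C) : Finset V) := fun r S hr a b c => by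
    have m : ∀ {X : Set V}, X ⊆ (insert r3 (insert r4 C) : Finset V) → AA p ⊔ Submodule.span ℚ X ≤
        AA p ⊔ Submodule.span ℚ (insert r3 (insert r4 C) : Finset V) := fun c =>
      sup_le_sup_left (Submodule.span_mono c) _
    rcases (by omega : S.card = 2 ∨ S.card = 3 ∨ S.card = 4) with e | e | e
    · exact m (by intro x hx; simp [mem_coe.1 hx]) (h2 r S hr e (by omega))
    · exact m (by simp) (h3 r S hr e (by omega))
    · exact m (by simp) (h4 r S hr e (by omega))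
  have h5 : ⊤ ≤ AA p ⊔ Submodule.span ℚ (insert r3 (insert r4 C) : Finset V) := hU ▸ Submodule.span_le.2 (by
    rintro r ⟨hr, a, b, e⟩
    rcases h.types hr e with ⟨a, b, -, rfl⟩ | ⟨S, hS | hS, c⟩
    · exact Submodule.mem_sup_left (sub_mem_AA a b)
    · exact key r S hS c.1 c.2.1 c.2.2
    · exact neg_mem_iff.1 (key _ S hS c.1 c.2.1 c.2.2))
  have h6 := (Submodule.finrank_mono h5).trans (Submodule.finrank_add_le_finrank_add_finrank _ _)
  have h7 := finrank_span_finset_le_card (R := ℚ) (insert r3 (insert r4 C))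
  have h8 := card_insert_le r3 (insert r4 C)
  have h9 := card_insert_le r4 C
  have := finrank_AA h.toPD h.two
  rw [finrank_top, hd] at h6
  rw [Set.finrank] at h7
  omega

theorem types2 (hn : 12 ≤ Fintype.card ι) (hr : Rt B L r) {a b : ι} (e : B r (p a - p b) ≠ 0) :
    (∃ a b, a ≠ b ∧ r = p a - p b) ∨ ∃ S : Finset ι, (Nb B L p r S ∨ Nb B L p (-r) S) ∧ S.card = 2 :=
  (h.types hr e).imp_right fun ⟨S, h1, _, h2, h3⟩ => ⟨S, h1, by
    have := h1.elim h.bound h.bound
    rcases (by omega : S.card = 2 ∨ S.card = 3 ∨ S.card = 4) with e | e | e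
    · exact e
    all_goals rw [e] at this; omega⟩

variable {G : Type*} [Group G] [Finite G] {ρ : Representation ℚ G V} (i : Irr B ρ) (hL : ∀ g, ∀ x ∈ L, ρ g x ∈ L)
include i hL

omit [Nonempty ι] h [Finite G] in
theorem rt_map (g : G) (hr : Rt B L r) : Rt B L (ρ g r) := ⟨hL g r hr.1, (i.inv g r r).trans hr.2⟩

/-- type `A₂₃` -/
theorem caseA (hU : UU B L p = ⊤) (hn : 12 ≤ Fintype.card ι) (c : ¬ ∃ r S, Nb B L p r S ∧ S.card = 2) :
    ∃ H : Subgroup G, H.index = 23 ∨ H.index = 24 := by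
  have ed : ∀ r, Rt B L r → (∃ a b, B r (p a - p b) ≠ 0) → ∃ a b, a ≠ b ∧ r = p a - p b := fun r hr ⟨a, b, e⟩ =>
    (h.types2 hn hr e).resolve_right fun ⟨S, d, e⟩ => d.elim (fun d => c ⟨_, S, d, e⟩) fun d => c ⟨_, S, d, e⟩
  have hA : AA p = ⊤ := top_le_iff.1 (hU ▸ Submodule.span_le.2 fun r hr => by
    obtain ⟨a, b, -, rfl⟩ := ed r hr.1 hr.2
    exact sub_mem_AA a b)
  have h24 := finrank_AA h.toPD h.two
  rw [hA, finrank_top, i.dim] at h24
  obtain ⟨a0⟩ := ‹Nonempty ι›
  have hN : B (lc p (cen {a0})) (lc p (cen {a0})) = 23 / 24 := by rw [h.cen_cen, ← h24]; norm_num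
  refine i.key h24.ge (fun a => lc p (cen {a})) (y := lc p (cen {a0})) (fun e => by norm_num [e] at hN) fun g => ?_
  obtain ⟨x, hx, e⟩ := hA.ge (Submodule.mem_top (x := ρ g (lc p (cen {a0}))))
  have hx := mem_Z0.1 hx
  obtain ⟨c0, S, hS⟩ := two_val (c := x) fun a b => by
    by_cases ab : a = b
    · exact ⟨by simp [ab], 0, by simp [ab]⟩
    have h1 := rt_map i hL g⁻¹ (h.edge ab)
    obtain ⟨a', b', -, e'⟩ := ed _ h1 (by
      by_contra! d
      have := (AA_le (W := LinearMap.ker (B _)) a0 (d a0)) (hA.ge (Submodule.mem_top (x := ρ g⁻¹ (p a - p b))))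
      rw [LinearMap.mem_ker, h1.2] at this
      norm_num at this)
    rw [← h.lc_edge' hx, e, i.inv', e', h.lc_edge' (sum_cen _)]
    simp only [cen, sub_sub_sub_cancel_right, chi]
    split_ifs
    exacts [⟨by norm_num, 0, by norm_num⟩, ⟨by norm_num, 1, by norm_num⟩, ⟨by norm_num, -1, by norm_num⟩,
      ⟨by norm_num, 0, by norm_num⟩]
  obtain rfl : x = cen S := funext fun a => by
    simp only [hS, sum_add_distrib, sum_const, card_univ, sum_chi', ← h24, nsmul_eq_mul] at hx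
    rw [hS, cen, ← h24]
    push_cast at hx ⊢
    linarith
  have h1 := (i.inv g _ _).trans hN
  rw [← e, h.cen_cen, inter_self, ← h24] at h1
  have h2 : ((S.card : ℚ) - 1) * (S.card - 23) = 0 := by push_cast at h1; linarith
  rcases mul_eq_zero.1 h2 with h2 | h2
  · obtain ⟨a, rfl⟩ := card_eq_one.1 (show S.card = 1 by exact_mod_cast sub_eq_zero.1 h2)
    exact ⟨a, .inl e.symm⟩
  · have h3 : S.card = 23 := by exact_mod_cast sub_eq_zero.1 h2
    obtain ⟨a, ha⟩ := card_eq_one.1 (show Sᶜ.card = 1 by rw [card_compl]; omega)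
    refine ⟨a, .inr ?_⟩
    rw [← e, ← map_neg, ← ha]
    refine congrArg _ (funext fun b => ?_)
    simp only [cen, Pi.neg_apply, chi, mem_compl, card_compl, ← h24, h3]
    split_ifs <;> norm_num

/-- type `D₂₃` -/
theorem caseD (hU : UU B L p = ⊤) (hn : 12 ≤ Fintype.card ι) (h0 : Nb B L p r S) (hS : S.card = 2) :
    ∃ H : Subgroup G, H.index = 23 ∨ H.index = 24 := by
  have := i.fin
  have n0 : (12 : ℚ) ≤ Fintype.card ι := by exact_mod_cast hn
  have z1 : ∀ {x : ι → ℚ}, ∑ a, x a = 0 → B (r - lc p (cen S)) (lc p x) = 0 := fun hx => by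
    rw [map_sub, LinearMap.sub_apply, h0.lc hx, h.gr (sum_cen S) hx, sum_cen_mul S hx, sub_self]
  have z2 : B (r - lc p (cen S)) (r - lc p (cen S)) = 4 / Fintype.card ι := by
    rw [map_sub (B _), z1 (sum_cen S), h.symm, map_sub, h0.1.2, h0.lc (sum_cen S), sum_cen', inter_self, hS]
    push_cast; ring
  obtain ⟨w, hw⟩ : ∃ w, w = r - lc p (cen S) := ⟨_, rfl⟩
  rw [← hw] at z1 z2
  obtain ⟨e, he⟩ : ∃ e : ι → V, ∀ a, e a = lc p (cen {a}) + (1 / 2 : ℚ) • w := ⟨_, fun _ => rfl⟩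
  have e1 : ∀ a b, B (e a) (e b) = if a = b then 1 else 0 := fun a b => by
    simp only [he, map_add, LinearMap.add_apply, map_smul, LinearMap.smul_apply, h.cen_cen, z1 (sum_cen _), z2,
      h.symm (lc p _) w, card_singleton, smul_eq_mul]
    split_ifs with c
    · simp [c]; ring
    · simp [Ne.symm c]; ring
  have e2 : ∀ a b, p a - p b = e a - e b := fun a b => by
    rw [he, he, add_sub_add_right_eq_sub, ← map_sub, ← lc_edge]
    exact congrArg _ (funext fun c => by simp [cen])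
  have e3 : ∀ a b, a ≠ b → r + lc p (chi {a, b} - chi S) = e a + e b := fun a b c => by
    rw [he, he, add_add_add_comm, ← add_smul, ← map_add, eq_add_of_sub_eq hw.symm, add_assoc, ← map_add, add_comm,
      add_halves, one_smul]
    refine congrArg (lc p · + w) (funext fun d => ?_)
    simp only [cen, chi, Pi.add_apply, Pi.sub_apply, mem_insert, mem_singleton, hS, card_singleton]
    by_cases d1 : d = a <;> by_cases d2 : d = b <;> simp [d1, d2, c, c.symm] <;> first | exact (c (d1 ▸ d2)).elim | ring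
  have e4 : ∀ {a b}, a ≠ b → Nb B L p (e a + e b) {a, b} := fun c =>
    e3 _ _ c ▸ h.move h0 ((card_pair c).trans hS.symm)
  have ed : ∀ t, Rt B L t → (∃ a b, B t (p a - p b) ≠ 0) → ∃ a b, t = e a - e b ∨ t = e a + e b ∨ -t = e a + e b :=
    fun t ht ⟨a, b, c⟩ => by
      rcases h.types2 hn ht c with ⟨a, b, -, rfl⟩ | ⟨T, d, c⟩
      · exact ⟨a, b, .inl (e2 a b)⟩
      · obtain ⟨a, b, ab, rfl⟩ := card_eq_two.1 c
        exact ⟨a, b, .inr (d.imp (fun d => h.uniq2 (by omega) d (e4 ab) c) fun d => h.uniq2 (by omega) d (e4 ab) c)⟩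
  obtain ⟨a0⟩ := ‹Nonempty ι›
  have e5 : ∀ a, ∃ k : ℤ, B (e a0) (e a) = k := fun a => by
    rw [e1]; split_ifs; exacts [⟨1, by simp⟩, ⟨0, by simp⟩]
  have it : ∀ t, Rt B L t → ∃ k : ℤ, B (e a0) t = k := fun t ht => by
    by_cases c : ∃ a b, B t (p a - p b) ≠ 0
    · obtain ⟨a, b, c⟩ := ed t ht c
      obtain ⟨k, hk⟩ := e5 a
      obtain ⟨l, hl⟩ := e5 b
      rcases c with c | c | c
      · exact ⟨k - l, by simp [c, hk, hl]⟩
      · exact ⟨k + l, by simp [c, hk, hl]⟩
      · exact ⟨-(k + l), by rw [neg_eq_iff_eq_neg.1 c]; simp [hk, hl]⟩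
    push Not at c
    have c1 : ∀ {x : ι → ℚ}, ∑ a, x a = 0 → B t (lc p x) = 0 := fun hx =>
      (AA_le (W := LinearMap.ker (B t)) a0 (c a0)) ⟨_, mem_Z0.2 hx, rfl⟩
    obtain ⟨k, hk⟩ := h.int t ht.1 r h0.1.1
    have c2 : B t w = k := by rw [hw, map_sub, c1 (sum_cen S), hk, sub_zero]
    have c3 := h.nonneg ((2 : ℚ) • w - (k : ℚ) • t)
    simp only [h.sub_sq, map_smul, LinearMap.smul_apply, smul_eq_mul, z2, h.symm w t, c2, ht.2] at c3
    have c4 : (4 : ℚ) / Fintype.card ι ≤ 1 / 3 := by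
      rw [div_le_div_iff₀ (by linarith) (by norm_num)]; linarith
    have c5 : k * k < 1 := by exact_mod_cast (by linarith : (k : ℚ) * k < 1)
    have c6 : k = 0 := by nlinarith [mul_self_nonneg k]
    exact ⟨0, by rw [h.symm, he, map_add, c1 (sum_cen _), map_smul, c2, c6]; simp⟩
  have sp : ⊤ ≤ Submodule.span ℚ (Set.range e) := hU ▸ Submodule.span_le.2 fun t ht => by
    have m : ∀ a, e a ∈ Submodule.span ℚ (Set.range e) := fun a => Submodule.subset_span ⟨a, rfl⟩
    obtain ⟨a, b, c | c | c⟩ := ed t ht.1 ht.2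
    exacts [c ▸ sub_mem (m a) (m b), c ▸ add_mem (m a) (m b), neg_mem_iff.1 (c ▸ add_mem (m a) (m b))]
  have h24 := finrank_AA h.toPD h.two
  have h23 := (Submodule.finrank_le (AA p)).trans i.dim.le
  have hN : B (e a0) (e a0) = 1 := by simp [e1]
  refine i.key (ι := ι) (by omega) e (y := e a0) (fun c => by simp [c] at hN) fun g => ?_
  obtain ⟨x, hx⟩ := (Submodule.mem_span_range_iff_exists_fun ℚ).1 (sp (Submodule.mem_top (x := ρ g (e a0))))
  have x1 : ∀ a, B (ρ g (e a0)) (e a) = x a := fun a => by simp [← hx, e1]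
  have x2 : ∑ a, x a * x a = 1 := by
    rw [← hN, ← i.inv g]
    conv_rhs => rw [← hx, map_sum]
    simp only [map_smul, LinearMap.sum_apply, LinearMap.smul_apply, smul_eq_mul, hx, h.symm (e _), x1]
  have x3 : ∀ a b, a ≠ b → (∃ k : ℤ, x a - x b = k) ∧ ∃ k : ℤ, x a + x b = k := fun a b c => by
    rw [← x1, ← x1, ← map_sub, ← map_add, ← e2, i.inv', i.inv']
    exact ⟨it _ (rt_map i hL _ (h.edge c)), it _ (rt_map i hL _ (e4 c).1)⟩
  obtain ⟨a, ha⟩ : ∃ a, 1 ≤ x a * x a := by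
    by_contra! c
    by_cases d : ∃ a, x a = 0
    · obtain ⟨a, ha⟩ := d
      rw [sum_eq_zero fun b _ => ?_] at x2
      · norm_num at x2
      by_cases ab : b = a
      · simp [ab, ha]
      obtain ⟨k, hk⟩ := (x3 b a ab).1
      have := c b
      rw [ha, sub_zero] at hk
      rw [hk] at this ⊢
      have h1 : k * k < 1 := by exact_mod_cast this
      exact_mod_cast (by nlinarith [mul_self_nonneg k] : k * k = 0)
    push Not at d
    have : ∀ a, 1 / 4 ≤ x a * x a := fun a => by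
      obtain ⟨b, hb⟩ := Fintype.exists_ne_of_one_lt_card (by omega) a
      obtain ⟨⟨k, hk⟩, l, hl⟩ := x3 a b hb.symm
      have h1 : x a = ((k + l : ℤ) : ℚ) / 2 := by push_cast; linarith
      have h2 : k + l ≠ 0 := fun e => d a (by rw [h1, e]; simp)
      have h3 : (1 : ℚ) ≤ ((k + l : ℤ) : ℚ) * (k + l : ℤ) := by exact_mod_cast mul_self_pos.2 h2
      rw [h1]; linarith
    have := card_nsmul_le_sum univ _ _ fun a _ => this a
    rw [x2, card_univ, nsmul_eq_mul] at this
    linarith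
  have y1 : ρ g (e a0) = x a • e a := sub_eq_zero.1 (h.eq_zero (by
    simp only [h.sub_sq, i.inv, hN, map_smul, LinearMap.smul_apply, smul_eq_mul, x1, e1, if_true]; linarith))
  have y2 := i.inv g (e a0) (e a0)
  simp only [y1, hN, map_smul, LinearMap.smul_apply, smul_eq_mul, e1, if_true, mul_one] at y2
  exact ⟨a, (mul_self_eq_one_iff.1 y2).imp (fun c => by rw [y1, c, one_smul]) fun c => by rw [y1, c, neg_one_smul]⟩

end Sx

/-- an invariant integral lattice with a root gives a subgroup of index 23 or 24 -/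
theorem root_index {G : Type*} [Group G] [Finite G] {ρ : Representation ℚ G V} (i : Irr B ρ)
    (hI : ∀ x ∈ L, ∀ y ∈ L, ∃ k : ℤ, B x y = k) (hL : ∀ g, ∀ x ∈ L, ρ g x ∈ L) (hr : r ∈ L) (h2 : B r r = 2) :
    ∃ H : Subgroup G, H.index = 23 ∨ H.index = 24 := by
  classical
  have := i.fin
  have r0 : r ≠ 0 := fun e => by simp [e] at h2
  have h0 : (∀ a ∈ ({r, 0} : Finset V), a ∈ L) ∧ ∀ a ∈ ({r, 0} : Finset V), ∀ b ∈ ({r, 0} : Finset V), a ≠ b →
      B (a - b) (a - b) = 2 := by simp [hr, h2]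
  obtain ⟨P, hP, hm⟩ := exists_max (N := 24) (Q := fun s : Finset V => (∀ a ∈ s, a ∈ L) ∧
      ∀ a ∈ s, ∀ b ∈ s, a ≠ b → B (a - b) (a - b) = 2) ⟨_, h0⟩ fun s hs => by
    rcases s.eq_empty_or_nonempty with rfl | ⟨a, ha⟩
    · simp
    have : Nonempty s := ⟨⟨a, ha⟩⟩
    have h1 := finrank_AA (p := (Subtype.val : s → V)) i.toPD fun a b c => hs.2 a a.2 b b.2 (mt Subtype.ext c)
    have h3 := (Submodule.finrank_le (AA (Subtype.val : s → V))).trans i.dim.le
    rw [Fintype.card_coe] at h1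
    omega
  have h1 := hm _ h0
  rw [card_pair r0] at h1
  obtain ⟨a, ha, b, hb, ab⟩ := one_lt_card.1 h1
  have : Nonempty P := ⟨⟨a, ha⟩⟩
  have h : Sx B L (Subtype.val : P → V) := ⟨⟨i.toPD, hI⟩, fun a => hP.1 a a.2,
    fun a b c => hP.2 a a.2 b b.2 (mt Subtype.ext c), fun s a b => by rw [Fintype.card_coe]; exact hm s ⟨a, b⟩⟩
  have e := hP.2 a ha b hb ab
  refine (i.block (U := UU B L (Subtype.val : P → V)) (fun c => ?_) fun g => ?_).elim (fun hU => ?_)
    fun ⟨H, c⟩ => ⟨H, .inl c⟩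
  · have := (Submodule.eq_bot_iff _).1 c (a - b) (Submodule.subset_span
      ⟨⟨sub_mem (hP.1 a ha) (hP.1 b hb), e⟩, ⟨a, ha⟩, ⟨b, hb⟩, by simp only [e]; norm_num⟩)
    simp [this] at e
  · refine (h.conn (W := (UU B L (Subtype.val : P → V)).comap (ρ g)) fun t ht =>
      (h.cl _ (Sx.rt_map i hL g ht)).imp_right fun c w hw => (i.inv g t w).symm.trans (c _ hw)).imp
      (fun c u hu => c hu) fun c u hu w hw => ?_
    rw [i.inv']
    exact c u hu _ (by rwa [Submodule.mem_comap, rho_inv'])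
  · have hn := h.twelve i.dim hU
    by_cases c : ∃ r S, Nb B L (Subtype.val : P → V) r S ∧ S.card = 2
    · obtain ⟨r, S, c, d⟩ := c
      exact h.caseD i hL hU hn c d
    · exact h.caseA i hL hU hn c

end CL.Lat23
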