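/-
Finite rational linear groups of degree 23: the steps put together.
-/
import Cfsg.Agent.Lat.F1
import Cfsg.Agent.Lat.Root

set_option autoImplicit false

open Module Matrix

namespace CL.F23

universe u

theorem exists_irr {G : Type u} [Group G] [Fintype G] {V : Type} [AddCommGroup V] [Module ℚ V]
    (ρ : G →* Module.End ℚ V) (hd : finrank ℚ V = 23)
    (hi : ∀ U : Submodule ℚ V, (∀ g, ∀ w ∈ U, ρ g w ∈ U) → U = ⊥ ∨ U = ⊤) : ∃ B, CL.Lat23.Irr B ρ := by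
  haveI : FiniteDimensional ℚ V := Module.finite_of_finrank_eq_succ hd
  let b := Module.finBasis ℚ V
  let B : LinearMap.BilinForm ℚ V := LinearMap.mk₂ ℚ (fun x y => ∑ g, ∑ i, b.repr (ρ g x) i * b.repr (ρ g y) i)
    (fun _ _ _ => by simp [add_mul, Finset.sum_add_distrib]) (fun _ _ _ => by simp [Finset.mul_sum, mul_assoc])
    (fun _ _ _ => by simp [mul_add, Finset.sum_add_distrib])
    (fun _ _ _ => by simp [Finset.mul_sum, mul_left_comm])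
  have hB : ∀ x y, B x y = ∑ g, ∑ i, b.repr (ρ g x) i * b.repr (ρ g y) i := fun _ _ => rfl
  refine ⟨B, ⟨fun x y => by simp only [hB, mul_comm], fun x hx => ?_⟩, hd, fun g x y => ?_, hi⟩
  · obtain ⟨i, hi⟩ : ∃ i, b.repr x i ≠ 0 := by
      by_contra! h
      exact hx (b.ext_elem fun i => by simp [h i])
    rw [hB]
    refine Finset.sum_pos' (fun g _ => Finset.sum_nonneg fun j _ => mul_self_nonneg _) ⟨1, Finset.mem_univ _, ?_⟩
    exact Finset.sum_pos' (fun j _ => mul_self_nonneg _) ⟨i, Finset.mem_univ _, by simpa using hi⟩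
  · simp only [hB, ← rho_mul]
    exact Fintype.sum_equiv (Equiv.mulRight g) _ _ fun _ => rfl

theorem main_of (h1 : SchurThm.{u}) (h2 : MinThm.{u}) (h3 : TrThm.{u}) (h4 : ShapeThm.{u}) (h5 : QRThm.{u})
    (h6 : EvThm.{u}) (h7 : EmbThm.{u}) (h8 : TwoThm.{u}) {G : Type u} [Group G] [Finite G]
    (ρ : G →* GL (Fin 23) ℚ) (hρ : Function.Injective ρ)
    (hirr : ∀ W : Submodule ℚ (Fin 23 → ℚ), (∀ g : G, ∀ w ∈ W,
      ((ρ g : GL (Fin 23) ℚ) : Matrix (Fin 23) (Fin 23) ℚ).mulVec w ∈ W) → W = ⊥ ∨ W = ⊤)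
    (hidx : ∀ H : Subgroup G, H.index ≠ 23 ∧ H.index ≠ 24) : Concl G := by
  haveI := Fintype.ofFinite G
  let τ : G →* Module.End ℚ (Fin 23 → ℚ) :=
    (Matrix.toLinAlgEquiv' (R := ℚ) (n := Fin 23)).toMonoidHom.comp ((Units.coeHom _).comp ρ)
  have hd : finrank ℚ (Fin 23 → ℚ) = 23 := by simp
  have hi : ∀ U : Submodule ℚ (Fin 23 → ℚ), (∀ g, ∀ w ∈ U, τ g w ∈ U) → U = ⊥ ∨ U = ⊤ := fun U hU =>
    hirr U fun g w hw => hU g w hw
  obtain ⟨B, hB⟩ := exists_irr τ hd hi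
  have hR : Rep τ := ⟨hd, fun g k e => hρ (Units.ext (Matrix.toLinAlgEquiv'.injective e)), hi,
    fun y hy => hB.big hidx hy⟩
  obtain ⟨β, L, hI, hM⟩ := h2 G _ τ hR
  obtain ⟨σ, hA⟩ := h1 G _ τ β L hR hI
  obtain ⟨e, hT⟩ := h3 G _ τ β σ L hR hA hI hM
  obtain ⟨v, d, hS, hd'⟩ := h4 G _ τ β σ L e hR hA hI hT
  have hr : ∀ x ∈ L, β x x ≠ 2 := fun x hx h => by
    obtain ⟨H, hH⟩ := CL.Lat23.root_index (ρ := τ) ⟨⟨hI.symm, fun x => hI.pos x⟩, hd, hI.inv, hi⟩ hI.int hI.stab hx h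
    exact hH.elim (hidx H).1 (hidx H).2
  obtain ⟨E, w, D, hS', hE, hD⟩ := h6 G _ τ β σ L v d hS hd' (h5 G _ τ β σ L v d hS) hr
  rcases hD with rfl | hD
  · exact absurd hE (h8 G _ τ β σ E w hS')
  · exact h7 G _ τ β σ E w D hS' hE hD

end CL.F23
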