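/-
Finite rational linear groups of degree 23: invariant lattices of least discriminant.
-/
import Cfsg.Agent.Lat.F1

set_option autoImplicit false

open Module

namespace CL.F23

universe u

namespace MinA

variable {G : Type u} [Group G] {V : Type} [AddCommGroup V] [Module ℚ V] {ρ : G →* Module.End ℚ V}
  {β : LinearMap.BilinForm ℚ V} {L : AddSubgroup V}

theorem exists_inv [Fintype G] (r : Rep ρ) : ∃ β L, Inv ρ β L := by
  classical
  have := r.fin
  let b := Module.finBasis ℚ V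
  let β : LinearMap.BilinForm ℚ V := LinearMap.mk₂ ℚ (fun x y => ∑ g, ∑ i, b.repr (ρ g x) i * b.repr (ρ g y) i)
    (fun _ _ _ => by simp [add_mul, Finset.sum_add_distrib]) (fun _ _ _ => by simp [Finset.mul_sum, mul_assoc])
    (fun _ _ _ => by simp [mul_add, Finset.sum_add_distrib]) fun _ _ _ => by simp [Finset.mul_sum, mul_left_comm]
  have hβ : ∀ x y, β x y = ∑ g, ∑ i, b.repr (ρ g x) i * b.repr (ρ g y) i := fun _ _ => rfl
  have pd : PD β := ⟨fun x y => by simp only [hβ, mul_comm], fun x hx => by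
    obtain ⟨i, hi⟩ : ∃ i, b.repr x i ≠ 0 := by
      by_contra c
      push Not at c
      exact hx (b.repr.map_eq_zero_iff.1 (Finsupp.ext c))
    refine Finset.sum_pos' (fun g _ => Finset.sum_nonneg fun i _ => mul_self_nonneg _) ⟨1, Finset.mem_univ _,
      Finset.sum_pos' (fun i _ => mul_self_nonneg _) ⟨i, Finset.mem_univ _, ?_⟩⟩
    simpa using hi⟩
  let v : G × Fin (finrank ℚ V) → V := fun p => ρ p.1 (b p.2)
  let L := AddSubgroup.closure (Set.range v)
  have hL : Lat L := ⟨(AddSubgroup.fg_iff _).2 ⟨_, rfl, Set.finite_range _⟩, fun x => by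
    obtain ⟨n, h0, hn⟩ := (isB_closure b).lat.full x
    refine ⟨n, h0, AddSubgroup.closure_mono ?_ hn⟩
    rintro _ ⟨i, rfl⟩
    exact ⟨(1, i), by simp [v]⟩⟩
  choose n n0 hn using fun p => (hL.dual pd).full (v p)
  have h1 : L ≤ divq (∏ p, n p) (dual β L) := (AddSubgroup.closure_le _).2 (by
    rintro _ ⟨p, rfl⟩
    refine mem_divq.2 ?_
    rw [← Finset.prod_erase_mul _ _ (Finset.mem_univ p), Nat.cast_mul, mul_smul]
    exact (IsInt.nat _).smul_mem (hn p))
  refine ⟨((∏ p, n p : ℕ) : ℚ) • β, L, pd.smul (Nat.cast_pos.2 (Finset.prod_pos fun p _ => n0 p)), hL, fun g x y => ?_,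
    fun g => (AddSubgroup.closure_le (L.comap (ρ g).toAddMonoidHom)).2 ?_, fun x hx y hy => ?_⟩
  · simp only [LinearMap.smul_apply, hβ, ← rho_mul]
    exact congrArg _ (Equiv.sum_comp (Equiv.mulRight g) fun k => ∑ i, b.repr (ρ k x) i * b.repr (ρ k y) i)
  · rintro _ ⟨p, rfl⟩
    exact AddSubgroup.subset_closure ⟨(g * p.1, p.2), rho_mul ρ _ _ _⟩
  · have := h1 hx y hy
    rwa [map_smul] at this

theorem sqf (r : Rep ρ) (i : Inv ρ β L) (hm : ∀ β' L', Inv ρ β' L' → disc β L ≤ disc β' L') (q : ℕ) {y : V}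
    (hy : y ∈ dual β L) (h : ((q : ℚ) ^ 2) • y ∈ L) : (q : ℚ) • y ∈ L := by
  have := r.fin
  let M : AddSubgroup V :=
    { carrier := {x | ∃ z ∈ dual β L, ((q : ℚ) ^ 2) • z ∈ L ∧ x - (q : ℚ) • z ∈ L}
      zero_mem' := ⟨0, zero_mem _, by simp, by simp⟩
      add_mem' := fun ⟨z, a, b, c⟩ ⟨w, d, e, f⟩ => ⟨z + w, add_mem a d, by simpa using add_mem b e, by
        convert add_mem c f using 1; module⟩
      neg_mem' := fun ⟨z, a, b, c⟩ => ⟨-z, neg_mem a, by simpa using b, by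
        convert neg_mem c using 1; module⟩ }
  have le : L ≤ M := fun x hx => ⟨0, zero_mem _, by simp, by simpa using hx⟩
  have h1 : M ≤ dual β L := fun x ⟨z, a, _, c⟩ => by
    simpa using add_mem (i.le_dual c) ((IsInt.nat q).smul_mem a)
  have hM : Lat M := i.toLat.of_le (i.toLat.dual i.toPD) h1 one_pos fun x hx => by simpa using le hx
  have iM : Inv ρ β M := ⟨i.toPD, hM, i.inv, fun g x ⟨z, a, b, c⟩ => ⟨ρ g z, i.stab_dual g a, by
    simpa using i.stab g _ b, by simpa using i.stab g _ c⟩, fun x hx w ⟨z, a, b, c⟩ => by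
      obtain ⟨t, d, e, f⟩ := id hx
      have := ((h1 hx _ c).add ((IsInt.nat q).mul (a _ f))).add (a _ e)
      rwa [show β x (w - (q : ℚ) • z) + q * β z (x - (q : ℚ) • t) + β z (((q : ℚ) ^ 2) • t) = β x w by
        simp only [map_sub, map_smul, smul_eq_mul, i.symm z x]; ring] at this⟩
  have h2 := disc_of_le hM i.toLat le i.toPD one_pos iM.int (by simpa using i.int)
  rw [one_smul, one_pow, one_mul] at h2
  have h3 : disc β L = L.relIndex M ^ 2 * disc β M := by exact_mod_cast h2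
  have h4 : 0 < disc β M := Nat.pos_of_ne_zero ((hM.dual i.toPD).relIndex_ne_zero hM iM.le_dual)
  have h5 := hm β M iM
  have h6 := hM.relIndex_ne_zero i.toLat le
  have h7 : L.relIndex M = 1 := by
    by_contra c
    have := Nat.mul_le_mul_right (disc β M) (Nat.pow_le_pow_left (show 2 ≤ L.relIndex M by omega) 2)
    omega
  exact AddSubgroup.relIndex_eq_one.1 h7 ⟨y, hy, h, by simp⟩

theorem rk (r : Rep ρ) (i : Inv ρ β L) (hm : ∀ β' L', Inv ρ β' L' → disc β L ≤ disc β' L') {q : ℕ} (hq : q.Prime) :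
    L.relIndex (dual β L ⊓ divq q L) ≤ q ^ 11 := by
  have := r.fin
  have q0 : (0 : ℚ) < q := Nat.cast_pos.2 hq.pos
  have le : L ≤ dual β L ⊓ divq q L := le_inf i.le_dual fun x hx => (IsInt.nat q).smul_mem hx
  have hM : Lat (dual β L ⊓ divq q L) :=
    i.toLat.of_le (i.toLat.dual i.toPD) inf_le_left one_pos fun x hx => by simpa using le hx
  have iM : Inv ρ ((q : ℚ) • β) (dual β L ⊓ divq q L) := ⟨i.toPD.smul q0, hM, fun g x y => by simp [i.inv],
    fun g x hx => ⟨i.stab_dual g hx.1, mem_divq.2 (by simpa using i.stab g _ hx.2)⟩, fun x hx y hy => by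
      simpa using hx.1 _ hy.2⟩
  have e : (q : ℚ)⁻¹ • (q : ℚ) • β = β := inv_smul_smul₀ q0.ne' β
  have h2 := disc_of_le hM i.toLat le iM.toPD (inv_pos.2 q0) iM.int (e.symm ▸ i.int)
  rw [e, r.dim, inv_pow, mul_assoc, eq_inv_mul_iff_mul_eq₀ (pow_pos q0 _).ne'] at h2
  have h3 : q ^ 23 * disc β L = L.relIndex (dual β L ⊓ divq q L) ^ 2 * disc ((q : ℚ) • β) (dual β L ⊓ divq q L) := by
    exact_mod_cast h2
  have h4 : 0 < disc β L := Nat.pos_of_ne_zero ((i.toLat.dual i.toPD).relIndex_ne_zero i.toLat i.le_dual)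
  have h5 := Nat.le_of_mul_le_mul_right ((Nat.mul_le_mul_left _ (hm _ _ iM)).trans h3.ge) h4
  have h6 := AddSubgroup.relIndex_mul_relIndex L _ _ le (inf_le_right : _ ≤ divq q L)
  rw [i.toLat.relIndex_divq hq.pos, r.dim] at h6
  obtain ⟨k, -, hk⟩ := (Nat.dvd_prime_pow hq).1 (Dvd.intro _ h6)
  rw [hk, ← pow_mul, Nat.pow_le_pow_iff_right hq.one_lt] at h5
  rw [hk, Nat.pow_le_pow_iff_right hq.one_lt]
  omega

end MinA

open MinA in
theorem minThm : MinThm.{u} := fun G _ _ V _ _ ρ r => by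
  classical
  have hex : ∃ n, ∃ β L, Inv ρ β L ∧ disc β L = n := let ⟨β, L, i⟩ := exists_inv r; ⟨_, β, L, i, rfl⟩
  obtain ⟨β, L, i, e⟩ := Nat.find_spec hex
  have hm : ∀ β' L', Inv ρ β' L' → disc β L ≤ disc β' L' := fun β' L' i' => e ▸ Nat.find_min' hex ⟨β', L', i', rfl⟩
  exact ⟨β, L, i, fun q _ y hy h => sqf r i hm q hy h, fun q hq => rk r i hm hq⟩

end CL.F23
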