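/-
The discriminant is a square modulo 23.
-/
import Cfsg.Agent.Lat.F1
import Cfsg.Agent.Comp.Theta

set_option autoImplicit false

open Module Matrix Polynomial

namespace CL.F23

universe u

instance fact23 : Fact (Nat.Prime 23) := ⟨by norm_num⟩

/-- The determinant of a positive symmetric circulant of size 23. -/
theorem circ (c : ZMod 23 → ℤ) (hc : ∀ i, c (-i) = c i)
    (hpos : ∀ x : ZMod 23 → ℤ, 0 ≤ x ⬝ᵥ (Matrix.of fun i j => c (j - i)) *ᵥ x) {d m : ℕ} (hd : ∑ i, c i = d) (hd0 : 0 < d)
    (hdet : |(Matrix.of fun i j => c (j - i)).det| = m ^ 2 * d) : (23 : ℤ) ∣ d ^ 11 - m := by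
  let ψ : AddChar (ZMod 23) ℂ := ZMod.stdAddChar
  let C : Matrix (ZMod 23) (ZMod 23) ℤ := Matrix.of fun i j => c (j - i)
  let F : Matrix (ZMod 23) (ZMod 23) ℂ := Matrix.of fun i j => ψ (i * j)
  let lam : ZMod 23 → ℂ := fun j => ∑ i, c i * ψ (i * j)
  have h1 : ∀ i j, ∑ k, (c (k - i) : ℂ) * ψ (k * j) = ψ (i * j) * lam j := fun i j => by
    rw [Finset.mul_sum, ← Equiv.sum_comp (Equiv.addRight i)]
    exact Finset.sum_congr rfl fun k _ => by
      rw [Equiv.coe_addRight, add_sub_cancel_right, add_mul, AddChar.map_add_eq_mul]; ring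
  have hF : F.det ≠ 0 := by
    have : F * (Matrix.of fun i j => ψ (-(i * j))) = (23 : ℂ) • (1 : Matrix (ZMod 23) (ZMod 23) ℂ) := by
      ext i j
      have := AddChar.sum_mulShift (i - j) (ZMod.isPrimitive_stdAddChar 23)
      simp only [Matrix.mul_apply, F, Matrix.of_apply, ← AddChar.map_add_eq_mul, Matrix.smul_apply, Matrix.one_apply,
        smul_eq_mul]
      rw [Finset.sum_congr rfl fun k _ => by rw [show i * k + -(k * j) = k * (i - j) by ring], this]
      simp [sub_eq_zero]
    intro h0
    have := congrArg Matrix.det this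
    rw [Matrix.det_mul, h0, zero_mul, Matrix.det_smul, Matrix.det_one, mul_one] at this
    exact pow_ne_zero _ (by norm_num) this.symm
  have h2 : ((C.det : ℤ) : ℂ) = ∏ j, lam j := by
    have e : C.map (Int.castRingHom ℂ) * F = F * Matrix.diagonal lam := by
      ext i j
      rw [Matrix.mul_diagonal, Matrix.mul_apply]
      exact h1 i j
    have := congrArg Matrix.det e
    rw [Matrix.det_mul, Matrix.det_mul, Matrix.det_diagonal, mul_comm, mul_right_inj' hF] at this
    rw [← this]
    exact (Int.castRingHom ℂ).map_det C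
  have h3 : ∀ j, lam (-j) = lam j := fun j => by
    simp only [lam]
    rw [← Equiv.sum_comp (Equiv.neg _)]
    simp [hc]
  have h4 : ∀ j, lam j = ((lam j).re : ℝ) := fun j => by
    refine (Complex.conj_eq_iff_re.1 ?_).symm
    conv_rhs => rw [← h3 j]
    simp only [lam, map_sum, map_mul, map_intCast, ← AddChar.map_neg_eq_conj, mul_neg]
  have h5 : ∀ j, 0 ≤ (lam j).re := fun j => by
    have := CL.Comp.Th.qf_nonneg (n := 23) (B := C) hpos fun i : ZMod 23 => (ψ (i * j)).re
    have e : ∀ i, ∑ k, (c (k - i) : ℝ) * (ψ (k * j)).re = (ψ (i * j)).re * (lam j).re := fun i => by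
      have := congrArg Complex.re (h1 i j)
      rw [h4 j, Complex.re_mul_ofReal, Complex.re_sum] at this
      simpa using this
    replace this : 0 ≤ ∑ i : ZMod 23, (ψ (i * j)).re * ∑ k, (c (k - i) : ℝ) * (ψ (k * j)).re := this
    simp only [e, ← mul_assoc, ← Finset.sum_mul] at this
    refine nonneg_of_mul_nonneg_right this ?_
    exact Finset.sum_pos' (fun i _ => mul_self_nonneg _) ⟨0, Finset.mem_univ _, by simp⟩
  let S : Finset (ZMod 23) := {1, 2, 3, 4, 5, 6, 7, 8, 9, 10, 11}
  have h6 : ∏ j, lam j = d * (∏ j ∈ S, lam j) ^ 2 := by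
    rw [show (Finset.univ : Finset (ZMod 23)) = insert 0 (S ∪ S.image Neg.neg) by decide,
      Finset.prod_insert (by decide), Finset.prod_union (by decide),
      Finset.prod_image fun _ _ _ _ => neg_injective.eq_iff.1]
    simp only [h3, sq]
    congr 1
    simp only [lam, mul_zero, AddChar.map_zero_eq_one, mul_one]
    exact_mod_cast hd
  have h7 : ∏ j ∈ S, lam j = m := by
    have e : ∏ j ∈ S, lam j = ((∏ j ∈ S, (lam j).re : ℝ) : ℂ) := by
      rw [Complex.ofReal_prod]; exact Finset.prod_congr rfl fun j _ => h4 j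
    have p : 0 ≤ ∏ j ∈ S, (lam j).re := Finset.prod_nonneg fun j _ => h5 j
    rw [h6, e] at h2
    have h2' : ((C.det : ℤ) : ℝ) = d * (∏ j ∈ S, (lam j).re) ^ 2 :=
      Complex.ofReal_injective (by rw [Complex.ofReal_intCast, h2]; simp)
    have h8 : |((C.det : ℤ) : ℝ)| = m ^ 2 * d := by exact_mod_cast hdet
    have d0 : (0 : ℝ) < d := by exact_mod_cast hd0
    rw [h2', abs_of_nonneg (by positivity), mul_comm, mul_left_inj' d0.ne', sq_eq_sq₀ p (by positivity)] at h8
    rw [e, h8]; simp
  have hz : IsPrimitiveRoot (ψ 1) 23 := by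
    have a1 : ψ 1 ^ 23 = 1 := by rw [← AddChar.map_nsmul_eq_pow]; exact ψ.map_zero_eq_one
    have a2 : ψ 1 ≠ 1 := fun e => by
      rw [← ψ.map_zero_eq_one] at e
      exact one_ne_zero (ZMod.injective_stdAddChar e)
    have := IsPrimitiveRoot.orderOf (ψ 1)
    rwa [orderOf_eq_prime a1 a2] at this
  let g : ℤ[X] := ∏ j ∈ S, ∑ i, Polynomial.C (c i) * X ^ (i * j).val - Polynomial.C (m : ℤ)
  have hg : aeval (ψ 1) g = 0 := by
    simp only [g, map_sub, map_prod, map_sum, map_mul, aeval_C, map_pow, aeval_X, ← AddChar.map_nsmul_eq_pow,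
      nsmul_eq_mul, mul_one, ZMod.natCast_val, ZMod.cast_id', id_eq, eq_intCast, map_natCast, Int.cast_natCast, map_intCast]
    exact sub_eq_zero.2 h7
  have := minpoly.isIntegrallyClosed_dvd (hz.isIntegral (by norm_num)) hg
  rw [← cyclotomic_eq_minpoly hz (by norm_num)] at this
  have := Polynomial.eval_dvd (x := 1) this
  rw [eval_one_cyclotomic_prime] at this
  simpa [g, eval_prod, eval_finsetSum, hd, show S.card = 11 by decide] using this

variable {G : Type u} [Group G] {V : Type} [AddCommGroup V] [Module ℚ V] {ρ : G →* Module.End ℚ V}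
  {β : LinearMap.BilinForm ℚ V} {σ : G} {L : AddSubgroup V} {u : V} {d : ℕ}

theorem Sh.disc_eq (h : Sh ρ β σ L u d) : disc β L = d := by
  let f : ℤ →+ V := zmultiplesHom V u
  have hf : ∀ j : ℤ, f j = (j : ℚ) • u := fun j => (Int.cast_smul_eq_zsmul ℚ j u).symm
  have e1 : dual β L = f.range ⊔ L := by
    refine le_antisymm (fun y hy => ?_) (sup_le ?_ h.toInv.le_dual)
    · obtain ⟨j, hj⟩ := (h.mem_dual y).1 hy
      exact AddSubgroup.mem_sup.2 ⟨_, ⟨j, rfl⟩, _, hj, by rw [hf]; abel⟩
    · rintro _ ⟨j, rfl⟩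
      rw [hf]; exact (IsInt.cast j).smul_mem h.u_dual
  have e2 : L.comap f = AddSubgroup.zmultiples (d : ℤ) := by
    ext j
    rw [AddSubgroup.mem_comap, hf, h.ordu, Int.mem_zmultiples_iff]
  rw [disc, e1, AddSubgroup.relIndex_sup_right, ← AddSubgroup.index_comap, e2, Int.index_zmultiples, Int.natAbs_natCast]

/-- `L/23L` is a free `𝔽₂₃⟨σ⟩`-module on `l`. -/
theorem Sh.free (h : Sh ρ β σ L u d) {l : V} (hl : l ∈ L) (h1 : β l u = 1) (a : ZMod 23 → ℤ)
    (ha : (1 / 23 : ℚ) • ∑ i, (a i : ℚ) • ρ (σ ^ i.val) l ∈ L) (i : ZMod 23) : (23 : ℤ) ∣ a i := by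
  have hE : ∀ (p : ℤ[X]) (x : V), x ∈ L → aeval (ρ σ) p x ∈ L := fun p x hx => by
    induction p using Polynomial.induction_on' with
    | add p q hp hq => rw [map_add, LinearMap.add_apply]; exact L.add_mem hp hq
    | monomial n c =>
      rw [aeval_monomial, Module.End.mul_apply, ← map_pow, eq_intCast, Module.End.intCast_apply]
      exact L.zsmul_mem (h.stab _ _ hx) c
  let J : Ideal ℤ[X] :=
    { carrier := {p | aeval (ρ σ) p ((1 / 23 : ℚ) • l) ∈ L}
      zero_mem' := by simp
      add_mem' := fun hp hq => by simpa using L.add_mem hp hq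
      smul_mem' := fun p q hq => by
        rw [Set.mem_ofPred_eq, smul_eq_mul, map_mul, Module.End.mul_apply]; exact hE _ _ hq }
  let π := Polynomial.mapRingHom (Int.castRingHom (ZMod 23))
  have hπ : Function.Surjective π := Polynomial.map_surjective _ (ZMod.ringHom_surjective _)
  have hk : Ideal.comap π ⊥ ≤ J := fun p hp => by
    have : Polynomial.C (23 : ℤ) ∣ p := (C_dvd_iff_dvd_coeff _ _).2 fun n => by
      have := congrArg (fun q => coeff q n) (Ideal.mem_bot.1 (Ideal.mem_comap.1 hp))
      simp only [π, coe_mapRingHom, coeff_map, eq_intCast, coeff_zero] at this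
      exact (ZMod.intCast_zmod_eq_zero_iff_dvd _ 23).1 this
    refine J.mem_of_dvd this ?_
    change aeval (ρ σ) (Polynomial.C (23 : ℤ)) ((1 / 23 : ℚ) • l) ∈ L
    rw [aeval_C, eq_intCast, Module.End.intCast_apply, ← Int.cast_smul_eq_zsmul ℚ, smul_smul]
    simpa using hl
  have hJ : ∀ p, π p ∈ J.map π → p ∈ J := fun p hp => by
    rw [← Ideal.mem_comap, Ideal.comap_map_of_surjective π hπ, sup_of_le_left hk] at hp; exact hp
  obtain ⟨g, hg⟩ := (IsPrincipalIdealRing.principal (J.map π)).principal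
  have hp : Prime (X - Polynomial.C (1 : ZMod 23)) := prime_X_sub_C 1
  have e23 : (X - Polynomial.C (1 : ZMod 23)) ^ 23 = X ^ 23 - 1 := by rw [sub_pow_char]; simp
  have hg1 : g ∣ (X - Polynomial.C (1 : ZMod 23)) ^ 23 := by
    have : (X ^ 23 - 1 : ℤ[X]) ∈ J := by
      change aeval (ρ σ) (X ^ 23 - 1 : ℤ[X]) ((1 / 23 : ℚ) • l) ∈ L
      rw [map_sub, map_pow, aeval_X, ← map_pow, ← h.ord, pow_orderOf_eq_one, map_one, map_one, sub_self]
      exact L.zero_mem
    have := Ideal.mem_map_of_mem π this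
    rw [hg, Ideal.submodule_span_eq, Ideal.mem_span_singleton] at this
    rw [e23]
    simpa [π] using this
  obtain ⟨k, hk23, hgk⟩ := (dvd_prime_pow hp 23).1 hg1
  have hk' : k = 23 := by
    by_contra hne
    have e22 : (X - Polynomial.C (1 : ZMod 23)) ^ 22 = π (∑ i ∈ Finset.range 23, X ^ i) := by
      refine mul_right_cancel₀ hp.ne_zero ?_
      rw [← pow_succ, e23]
      simp only [π, map_sum, map_pow, coe_mapRingHom, map_X, map_one]
      exact (geom_sum_mul _ _).symm
    have : (∑ i ∈ Finset.range 23, X ^ i : ℤ[X]) ∈ J := hJ _ (by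
      rw [hg, Ideal.submodule_span_eq, Ideal.mem_span_singleton, ← e22]
      exact hgk.dvd.trans (pow_dvd_pow _ (by omega)))
    replace this : aeval (ρ σ) (∑ i ∈ Finset.range 23, X ^ i : ℤ[X]) ((1 / 23 : ℚ) • l) ∈ L := this
    simp only [map_sum, map_pow, aeval_X, LinearMap.sum_apply] at this
    simp only [← map_pow] at this
    rw [h.sum_pow, map_smul, LinearMap.smul_apply, h1, smul_eq_mul, mul_one] at this
    obtain ⟨j, hj⟩ := h.isInt_of_smul (h.toInv.le_dual this)
    rw [hj, h.ordu] at this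
    have e : (d : ℤ) = 23 * j := by exact_mod_cast (by linarith : (d : ℚ) = 23 * j)
    have d0 := h.dpos
    have := Int.le_of_dvd (by omega) this
    omega
  let p : ℤ[X] := ∑ i : ZMod 23, monomial i.val (a i)
  have hpJ : p ∈ J := by
    change aeval (ρ σ) p ((1 / 23 : ℚ) • l) ∈ L
    rw [map_smul]
    convert ha using 2
    simp only [p, map_sum, aeval_monomial, LinearMap.sum_apply, Module.End.mul_apply, ← map_pow, eq_intCast,
      Module.End.intCast_apply, Int.cast_smul_eq_zsmul]
  have hp0 : π p = 0 := by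
    have := Ideal.mem_map_of_mem π hpJ
    rw [hg, Ideal.submodule_span_eq, Ideal.mem_span_singleton, hgk.dvd_iff_dvd_left, hk'] at this
    refine eq_zero_of_dvd_of_natDegree_lt this ?_
    rw [natDegree_pow, natDegree_X_sub_C]
    refine (natDegree_map_le.trans (natDegree_sum_le_of_forall_le _ _ (n := 22) fun i _ => ?_)).trans_lt (by norm_num)
    exact (natDegree_monomial_le _).trans (Nat.lt_succ_iff.1 i.val_lt)
  have := congrArg (fun q => coeff q i.val) hp0
  simp only [π, p, coe_mapRingHom, coeff_map, finsetSum_coeff, coeff_monomial, (ZMod.val_injective 23).eq_iff,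
    Finset.sum_ite_eq', Finset.mem_univ, if_true, eq_intCast, coeff_zero] at this
  exact (ZMod.intCast_zmod_eq_zero_iff_dvd _ 23).1 this

theorem qrThm : QRThm.{u} := by
  intro G _ V _ _ ρ β σ L u d h
  haveI := h.toRep.fin
  obtain ⟨l, hl, h1⟩ := h.one
  let e : ZMod 23 → V := fun i => ρ (σ ^ i.val) l
  have hσ : ∀ i j : ZMod 23, σ ^ (i + j).val = σ ^ i.val * σ ^ j.val := fun i j => by
    rw [ZMod.val_add, ← pow_add, ← pow_mod_orderOf σ (i.val + j.val), h.ord]
  have hs : ∀ y, ∑ i : ZMod 23, ρ (σ ^ i.val) y = (d * β y u) • u := fun y =>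
    (Fin.sum_univ_eq_sum_range (fun i => ρ (σ ^ i) y) 23).trans (h.sum_pow y)
  have hli : LinearIndependent ℚ e := by
    rw [← LinearIndependent.iff_fractionRing ℤ ℚ, Fintype.linearIndependent_iff]
    intro a ha
    have key : ∀ (k : ℕ) (a : ZMod 23 → ℤ), ∑ i, a i • e i = 0 → ∀ i, (23 : ℤ) ^ k ∣ a i := fun k => by
      induction k with
      | zero => simp
      | succ k ih =>
        intro a ha
        choose a' ha' using h.free hl h1 a (by
          simp only [Int.cast_smul_eq_zsmul]; rw [ha, smul_zero]; exact L.zero_mem)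
        have : ∑ i, a' i • e i = 0 := by
          simp only [ha', mul_smul, ← Finset.smul_sum] at ha
          rw [← Int.cast_smul_eq_zsmul ℚ] at ha
          exact (smul_eq_zero.1 ha).resolve_left (by norm_num)
        exact fun i => by rw [ha', pow_succ']; exact mul_dvd_mul_left _ (ih a' this i)
    intro i
    refine Int.eq_zero_of_abs_lt_dvd (key (a i).natAbs a ha i) ?_
    rw [Int.abs_eq_natAbs]
    exact_mod_cast Nat.lt_pow_self (by norm_num : 1 < 23)
  let be : Basis (ZMod 23) ℚ V := basisOfLinearIndependentOfCardEqFinrank hli (by rw [h.dim, ZMod.card])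
  have hbe : ∀ i, be i = e i := fun i => by simp [be]
  obtain ⟨b0, hb0⟩ := h.toLat.exists_basis h.dim
  let b : Basis (ZMod 23) ℚ V := b0
  have hb : IsB b L := hb0
  let L' := AddSubgroup.closure (Set.range be)
  have hb' : IsB be L' := isB_closure be
  have hle : L' ≤ L := (AddSubgroup.closure_le _).2 (by rintro _ ⟨i, rfl⟩; rw [hbe]; exact h.stab _ _ hl)
  have hst : ∀ x ∈ L', ρ σ x ∈ L' := fun x hx => by
    have : L' ≤ L'.comap (ρ σ).toAddMonoidHom := (AddSubgroup.closure_le _).2 (by
      rintro _ ⟨i, rfl⟩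
      have := hb'.mem (1 + i)
      rw [hbe] at this
      simp only [e, hσ, rho_mul, ZMod.val_one, pow_one] at this
      rw [hbe]; exact this)
    exact this hx
  have hst' : ∀ n : ℕ, ∀ x ∈ L', ρ (σ ^ n) x ∈ L' := fun n x hx => by
    induction n with
    | zero => simpa using hx
    | succ n ih => rw [pow_succ', rho_mul]; exact hst _ ih
  have hfix : ∀ y ∈ L, ρ σ y - y ∈ L' → y ∈ L' := fun y hy hy' => by
    have a1 : ∀ n : ℕ, ρ (σ ^ n) y - y ∈ L' := fun n => by
      induction n with
      | zero => simp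
      | succ n ih =>
        have := L'.add_mem (hst' n _ hy') ih
        rwa [map_sub, ← rho_mul, ← pow_succ, sub_add_sub_cancel] at this
    have a2 := L'.sum_mem (t := Finset.univ) fun (i : ZMod 23) _ => a1 i.val
    have a3 := (h.int_u hy).smul_mem (L'.sum_mem (t := Finset.univ) fun (i : ZMod 23) _ => hb'.mem i)
    simp only [hbe, e] at a3
    rw [hs, h1, mul_one, smul_smul, mul_comm] at a3
    rw [Finset.sum_sub_distrib, hs, Finset.sum_const, Finset.card_univ, ZMod.card] at a2
    have a4 := L'.sub_mem a3 a2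
    rw [sub_sub_cancel, ← Nat.cast_smul_eq_nsmul ℚ, hb'] at a4
    choose a ha using a4
    have a5 : ∀ i, (a i : ℚ) = 23 * be.repr y i := fun i => by simpa using (ha i).symm
    have a6 := h.free hl h1 a (by
      convert hy
      conv_rhs => rw [← be.sum_repr y]
      rw [Finset.smul_sum]
      exact Finset.sum_congr rfl fun i _ => by rw [a5, smul_smul, hbe]; congr 1; ring)
    refine (hb' y).2 fun i => ?_
    obtain ⟨k, hk⟩ := a6 i
    exact ⟨k, by have := a5 i; rw [hk] at this; push_cast at this; linarith⟩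
  have hm : L'.relIndex L ≡ 1 [MOD 23] := by
    classical
    let τ : ∀ n : ℕ, L →+ L := fun n => ((ρ (σ ^ n)).toAddMonoidHom.comp L.subtype).codRestrict L fun x => h.stab _ _ x.2
    let f : ∀ n : ℕ, Function.End (L ⧸ L'.addSubgroupOf L) := fun n =>
      ⇑(QuotientAddGroup.map (L'.addSubgroupOf L) (L'.addSubgroupOf L) (τ n) fun x hx => hst' n _ hx)
    have hf : ∀ n, f 1 ^ n = f n := fun n => by
      induction n with
      | zero =>
        funext x
        obtain ⟨x, rfl⟩ := QuotientAddGroup.mk_surjective x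
        exact congrArg QuotientAddGroup.mk (Subtype.ext (by simp [τ]))
      | succ n ih =>
        rw [pow_succ, ih]
        funext x
        obtain ⟨x, rfl⟩ := QuotientAddGroup.mk_surjective x
        exact congrArg QuotientAddGroup.mk (Subtype.ext (by simp [τ, pow_succ]))
    haveI : Finite (L ⧸ L'.addSubgroupOf L) :=
      Nat.finite_of_card_ne_zero (h.toLat.relIndex_ne_zero hb'.lat hle)
    haveI := Fintype.ofFinite (L ⧸ L'.addSubgroupOf L)
    have := Equiv.Perm.card_fixedPoints_modEq (f := f 1) (p := 23) (n := 1) (by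
      rw [pow_one, hf]
      funext x
      obtain ⟨x, rfl⟩ := QuotientAddGroup.mk_surjective x
      exact congrArg QuotientAddGroup.mk (Subtype.ext (by simp [τ, ← h.ord, ← map_pow])))
    rw [← Nat.card_eq_fintype_card, ← Nat.card_eq_fintype_card,
      show (f 1).fixedPoints = {0} from Set.eq_singleton_iff_unique_mem.2 ⟨map_zero _, fun x hx => by
        obtain ⟨x, rfl⟩ := QuotientAddGroup.mk_surjective x
        have := QuotientAddGroup.eq_iff_sub_mem.1 hx
        exact (QuotientAddGroup.eq_zero_iff x).2 (hfix _ x.2 (by simpa [τ, AddSubgroup.mem_addSubgroupOf] using this))⟩,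
      Nat.card_unique (α := ({0} : Set _))] at this
    exact this
  choose c hc using fun i => h.int l hl (e i) (h.stab _ _ hl)
  have hg : ∀ i j, β (e i) (e j) = c (j - i) := fun i j => by
    rw [← hc, ← h.inv (σ ^ i.val) l, ← rho_mul, ← hσ, add_sub_cancel]
  have e0 : e 0 = l := by simp [e]
  have := circ c (fun i => by
      have := hg i 0
      rw [e0, h.symm, hc, zero_sub] at this
      exact_mod_cast this.symm)
    (fun x => by
      have := h.toPD.nonneg (∑ i, (x i : ℚ) • e i)
      simp only [map_sum, map_smul, LinearMap.sum_apply, LinearMap.smul_apply, smul_eq_mul, hg, Finset.mul_sum] at this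
      rw [Finset.sum_comm] at this
      have e : ((x ⬝ᵥ (Matrix.of fun i j => c (j - i)) *ᵥ x : ℤ) : ℚ) = ∑ i, ∑ j, (x j : ℚ) * (x i * c (j - i)) := by
        simp only [dotProduct, mulVec, Matrix.of_apply, Int.cast_sum, Int.cast_mul, Finset.mul_sum]
        exact Finset.sum_congr rfl fun _ _ => Finset.sum_congr rfl fun _ _ => by ring
      exact_mod_cast this.trans_eq e.symm)
    (d := d) (m := L'.relIndex L) (by
      have := congrArg (β l) (hs l)
      rw [map_sum, map_smul, h1, smul_eq_mul, mul_one, mul_one] at this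
      simp only [show ∀ i : ZMod 23, β l (ρ (σ ^ i.val) l) = c i from hc] at this
      exact_mod_cast this) h.dpos (by
      have a1 := det_gram (γ := β) b be
      have a2 := hb.disc h.toPD h.int
      have a3 := hb.relIndex hb' hle
      have a4 : (Matrix.of fun i j => β (be i) (be j)) = (Matrix.of fun i j => c (j - i)).map (Int.castRingHom ℚ) := by
        ext i j; simp [hbe, hg]
      rw [a4, ← RingHom.mapMatrix_apply, ← RingHom.map_det] at a1
      have a5 := congrArg abs a1
      rw [abs_mul, ← a2, abs_pow, ← a3, h.disc_eq, eq_intCast] at a5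
      exact_mod_cast a5)
  have a1 := (ZMod.intCast_zmod_eq_zero_iff_dvd _ 23).2 this
  have a2 := (ZMod.natCast_eq_natCast_iff _ _ _).2 hm
  push_cast at a1 a2
  rw [← a2]; exact sub_eq_zero.1 a1

end CL.F23
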