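/-
Absolute irreducibility and its consequences for rational linear groups of degree 23.
-/
import Cfsg.Agent.Lat.F1
import Cfsg.Agent.Cls.SympBasis

set_option autoImplicit false

open Module Polynomial

namespace CL.F23

universe u

variable {G : Type u} [Group G] {V : Type} [AddCommGroup V] [Module ℚ V] {ρ : G →* Module.End ℚ V}
  {β : LinearMap.BilinForm ℚ V} {L : AddSubgroup V}

namespace Sc

theorem unit (h : Rep ρ) {T : End ℚ V} (hT : ∀ g, ρ g * T = T * ρ g) (h0 : T ≠ 0) : IsUnit T := by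
  haveI := h.fin
  refine (LinearMap.isUnit_iff_ker_eq_bot T).2 ((h.irr _ fun g w hw => ?_).resolve_right fun e =>
    h0 (LinearMap.ker_eq_top.1 e))
  rw [LinearMap.mem_ker] at hw ⊢
  rw [← Module.End.mul_apply, ← hT, Module.End.mul_apply, hw, map_zero]

theorem alt_rad (h : Rep ρ) (B : LinearMap.BilinForm ℚ V) (hA : B.IsAlt) : ∃ x, x ≠ 0 ∧ ∀ y, B x y = 0 := by
  haveI := h.fin
  by_contra! h1
  have := CL.Cls.even_finrank_of_alt B (fun x hx => by_contra fun e => let ⟨y, hy⟩ := h1 x e; hy (hx y)) hA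
  rw [h.dim] at this
  exact absurd this (by decide)

theorem selfadj (h : Rep ρ) (hi : Inv ρ β L) {T : End ℚ V} (hT : ∀ g, ρ g * T = T * ρ g) (x y : V) :
    β (T x) y = β x (T y) := by
  let B : LinearMap.BilinForm ℚ V := β.compLeft T - β.compRight T
  have hB : ∀ x y, B x y = β (T x) y - β x (T y) := fun _ _ => rfl
  have hc : ∀ g v, T (ρ g v) = ρ g (T v) := fun g v => (LinearMap.congr_fun (hT g) v).symm
  obtain ⟨x0, h0, h1⟩ := alt_rad h B fun x => by rw [hB, hi.symm, sub_self]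
  have h2 : LinearMap.ker B = ⊤ := (h.irr _ fun g w hw => by
    rw [LinearMap.mem_ker] at hw ⊢
    ext y
    have := LinearMap.congr_fun hw (ρ g⁻¹ y)
    rw [hB, hc] at this
    rw [hB, hc, hi.adj, hi.adj, this]; rfl).resolve_left fun e =>
      h0 ((Submodule.eq_bot_iff _).1 e x0 (LinearMap.ext h1))
  have := LinearMap.congr_fun (LinearMap.mem_ker.1 (h2.ge (Submodule.mem_top (x := x)))) y
  rwa [hB, LinearMap.zero_apply, sub_eq_zero] at this

theorem ext_of (hi : Inv ρ β L) {S T : End ℚ V} (e : ∀ x y, β x (S y) = β x (T y)) : S = T :=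
  LinearMap.ext fun y => sub_eq_zero.1 (hi.toPD.eq_zero (by rw [map_sub (β _), e, sub_self]))

theorem nontriv (h : Rep ρ) : Nontrivial V := Module.nontrivial_of_finrank_eq_succ h.dim

/-- The commutant consists of scalars. -/
theorem scalar (h : Rep ρ) (hi : Inv ρ β L) {T : End ℚ V} (hT : ∀ g, ρ g * T = T * ρ g) :
    ∃ c : ℚ, T = c • (1 : End ℚ V) := by
  haveI := h.fin
  haveI := nontriv h
  let D : Subalgebra ℚ (End ℚ V) := Subalgebra.centralizer ℚ (Set.range ρ)
  have hD : ∀ {S : End ℚ V}, S ∈ D ↔ ∀ g, ρ g * S = S * ρ g := fun {S} => by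
    rw [Subalgebra.mem_centralizer_iff, Set.forall_mem_range]
  have hcomm : ∀ a b : D, a * b = b * a := fun a b => Subtype.ext (ext_of hi fun x y => by
    have e1 := selfadj h hi (hD.1 (b * a).2) x y
    rw [← e1]
    exact (selfadj h hi (hD.1 a.2) x _).symm.trans (selfadj h hi (hD.1 b.2) _ y).symm)
  have hF : IsField D := ⟨⟨0, 1, zero_ne_one⟩, hcomm, fun {a} ha => by
    obtain ⟨w, hw⟩ := unit h (hD.1 a.2) fun e => ha (Subtype.ext e)
    refine ⟨⟨↑w⁻¹, hD.2 fun g => ?_⟩, Subtype.ext (show a.1 * _ = 1 by rw [← hw, Units.mul_inv])⟩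
    have := hD.1 a.2 g
    rw [← hw] at this
    exact (Commute.units_inv_right this).eq⟩
  letI := hF.toField
  have hm : finrank ℚ D * finrank D V = 23 := (Module.finrank_mul_finrank ℚ D V).trans h.dim
  rcases (show Nat.Prime 23 by norm_num).eq_one_or_self_of_dvd _ (Dvd.intro _ hm) with e | e
  · have h1 : T ∈ (⊥ : Subalgebra ℚ (End ℚ V)) := Subalgebra.eq_bot_of_finrank_one e ▸ hD.2 hT
    obtain ⟨c, hc⟩ := Algebra.mem_bot.1 h1
    exact ⟨c, hc.symm.trans (Algebra.algebraMap_eq_smul_one c)⟩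
  · exfalso
    obtain ⟨v, hv⟩ := exists_ne (0 : V)
    have h1 : ∀ w, ∃ a : D, a.1 v = w := (finrank_eq_one_iff_of_nonzero' (K := D) v hv).1 (by rw [e] at hm; omega)
    refine h.not_line hv fun g => ?_
    obtain ⟨a, ha⟩ := h1 (ρ g v)
    have h2 : ρ g = a.1 := LinearMap.ext fun w => by
      obtain ⟨b, rfl⟩ := h1 w
      rw [← Module.End.mul_apply, hD.1 b.2, Module.End.mul_apply, ← ha]
      exact LinearMap.congr_fun (congrArg Subtype.val (hcomm b a)) v
    have h3 : ρ g ∈ D := h2 ▸ a.2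
    have h4 : ρ g = ρ g⁻¹ := ext_of hi fun x y => by rw [← selfadj h hi (hD.1 h3), hi.adj]
    have h5 : (ρ g - 1) * (ρ g + 1) = 0 := by
      rw [sub_mul, mul_add, mul_add, mul_one, one_mul, one_mul]
      nth_rewrite 2 [h4]
      rw [← map_mul, mul_inv_cancel, map_one]; abel
    by_cases h6 : ρ g - 1 = 0
    · exact ⟨1, by rw [sub_eq_zero.1 h6, one_smul]; rfl⟩
    · have h7 := (unit h (hD.1 (sub_mem h3 (one_mem _))) h6).mul_right_eq_zero.1 h5
      exact ⟨-1, by rw [eq_neg_of_add_eq_zero_left h7, neg_one_smul]; rfl⟩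

theorem avg [Fintype G] (h : Rep ρ) (hi : Inv ρ β L) (T : End ℚ V) :
    ∑ g, ρ g * T * ρ g⁻¹ = ((Fintype.card G : ℚ) / 23 * LinearMap.trace ℚ V T) • (1 : End ℚ V) := by
  haveI := h.fin
  obtain ⟨c, hc⟩ := scalar h hi (T := ∑ g, ρ g * T * ρ g⁻¹) fun k => by
    rw [Finset.mul_sum, Finset.sum_mul, ← Equiv.sum_comp (Equiv.mulLeft k) fun g => ρ g * T * ρ g⁻¹ * ρ k]
    refine Finset.sum_congr rfl fun g _ => ?_
    rw [Equiv.coe_mulLeft, mul_assoc _ (ρ _) (ρ k), ← map_mul, mul_inv_rev, inv_mul_cancel_right, map_mul]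
    simp only [mul_assoc]
  have h1 := congrArg (LinearMap.trace ℚ V) hc
  rw [map_sum, map_smul, LinearMap.trace_one, h.dim, Finset.sum_congr rfl fun g _ => show _ = LinearMap.trace ℚ V T by
    rw [LinearMap.trace_mul_comm, ← mul_assoc, ← map_mul, inv_mul_cancel, map_one, one_mul], Finset.sum_const,
    Finset.card_univ, nsmul_eq_mul, smul_eq_mul] at h1
  rw [hc]
  congr 1
  push_cast at h1
  linarith

theorem dvd [Fintype G] (h : Rep ρ) (hi : Inv ρ β L) : 23 ∣ Fintype.card G := by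
  haveI := h.fin
  obtain ⟨b, hb⟩ := hi.toLat.exists_basis h.dim
  have h1 := LinearMap.congr_fun (avg h hi ((b.coord 0).smulRight (b 0))) (b 0)
  rw [LinearMap.trace_smulRight, LinearMap.sum_apply] at h1
  have h2 : ∑ g, (ρ g * (b.coord 0).smulRight (b 0) * ρ g⁻¹) (b 0) ∈ L := L.sum_mem fun g _ =>
    hi.stab g _ (((hb _).1 (hi.stab g⁻¹ _ (hb.mem 0)) 0).smul_mem (hb.mem 0))
  rw [h1] at h2
  obtain ⟨n, hn⟩ := (hb _).1 h2 0
  simp only [Basis.coord_apply, Basis.repr_self, Finsupp.single_eq_same, mul_one, LinearMap.smul_apply,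
    Module.End.one_apply, map_smul, Finsupp.smul_apply, smul_eq_mul] at hn
  have h3 : ((Fintype.card G : ℕ) : ℤ) = 23 * n := by
    have : ((Fintype.card G : ℕ) : ℚ) = 23 * n := by linarith
    exact_mod_cast this
  exact Int.natCast_dvd_natCast.1 ⟨n, h3⟩

theorem cyc_dvd [FiniteDimensional ℚ V] (h : Rep ρ) {t : G} {q k : ℕ} (hq : q.Prime) (h1 : t ^ q ^ (k + 1) = 1)
    (h2 : t ^ q ^ k ≠ 1) : cyclotomic (q ^ (k + 1)) ℚ ∣ (ρ t).charpoly := by
  haveI := Fact.mk hq
  by_contra h3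
  obtain ⟨a, b, e⟩ := ((cyclotomic.irreducible_rat (pow_pos hq.pos (k + 1))).coprime_iff_not_dvd).2 h3
  have e1 := congrArg (aeval (ρ t)) e
  have e2 := congrArg (aeval (ρ t)) (cyclotomic_prime_pow_mul_X_pow_sub_one ℚ q k)
  rw [map_add, map_mul, map_mul, LinearMap.aeval_self_charpoly, mul_zero, add_zero, map_one] at e1
  rw [map_mul, map_sub, map_sub, map_pow, map_pow, aeval_X, map_one, ← map_pow, ← map_pow, h1, map_one,
    sub_self] at e2
  have e3 : ρ (t ^ q ^ k) - 1 = 0 := by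
    have := congrArg (aeval (ρ t) a * ·) e2
    simpa only [← mul_assoc, e1, one_mul, mul_zero] using this
  exact h2 (h.inj ((sub_eq_zero.1 e3).trans (map_one ρ).symm))

theorem tot_le (h : Rep ρ) {t : G} {q k : ℕ} (hq : q.Prime) (h1 : t ^ q ^ (k + 1) = 1) (h2 : t ^ q ^ k ≠ 1) :
    q ^ k * (q - 1) ≤ 23 := by
  haveI := h.fin
  have := natDegree_le_of_dvd (cyc_dvd h hq h1 h2) (ρ t).charpoly_monic.ne_zero
  rwa [natDegree_cyclotomic, LinearMap.charpoly_natDegree, h.dim, Nat.totient_prime_pow_succ hq] at this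

theorem trace_zero (h : Rep ρ) {t : G} (ht : orderOf t = 23) : LinearMap.trace ℚ V (ρ t) = 0 := by
  haveI := h.fin
  haveI : Fact (Nat.Prime 23) := ⟨by norm_num⟩
  have h0 : t ^ 23 = 1 := by rw [← ht, pow_orderOf_eq_one]
  obtain ⟨p, hp⟩ := cyc_dvd h (t := t) (q := 23) (k := 0) Fact.out h0 (fun e => by
    rw [pow_zero, pow_one] at e; simp [e] at ht)
  rw [zero_add, pow_one] at hp
  have hm := (ρ t).charpoly_monic
  have hpm : p.Monic := (cyclotomic.monic 23 ℚ).of_mul_monic_left (hp ▸ hm)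
  have hd : p.natDegree = 1 := by
    have := congrArg natDegree hp
    rw [(cyclotomic.monic 23 ℚ).natDegree_mul hpm, natDegree_cyclotomic, LinearMap.charpoly_natDegree, h.dim,
      Nat.totient_prime Fact.out] at this
    omega
  have hp1 := hpm.eq_X_add_C hd
  obtain ⟨y, hy⟩ := ((Module.End.hasEigenvalue_iff_isRoot_charpoly (ρ t) (-p.coeff 0)).2 (by
    rw [hp, hp1]; simp)).exists_hasEigenvector
  have h3 := hy.pow_apply 23
  rw [← map_pow, h0, map_one, Module.End.one_apply] at h3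
  have h4 : (-p.coeff 0) ^ 23 = 1 := (smul_left_injective ℚ hy.2 ((one_smul ℚ y).trans h3)).symm
  have h5 : -p.coeff 0 = 1 := (Odd.strictMono_pow (R := ℚ) (show Odd 23 by decide)).injective (h4.trans (one_pow 23).symm)
  rw [hp1, show p.coeff 0 = -1 by linarith, C_neg, C_1, ← sub_eq_add_neg, cyclotomic_prime_mul_X_sub_one] at hp
  let b := Module.finBasisOfFinrankEq ℚ V h.dim
  rw [LinearMap.trace_eq_matrix_trace ℚ b, Matrix.trace_eq_neg_charpoly_coeff, LinearMap.charpoly_toMatrix, hp]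
  simp [coeff_X_pow, coeff_one]

/-- The fixed space of a subgroup of exponent 23. -/
theorem fix_dim [Finite G] (h : Rep ρ) (Q : Subgroup G) (hQ : ∀ t ∈ Q, t ≠ 1 → orderOf t = 23) :
    Nat.card Q * finrank ℚ (Representation.invariants (ρ.comp Q.subtype)) = 23 := by
  classical
  haveI := h.fin
  haveI := Fintype.ofFinite Q
  have hc : (Fintype.card Q : ℚ) ≠ 0 := Nat.cast_ne_zero.2 Fintype.card_ne_zero
  letI := invertibleOfNonzero hc
  have h1 := (Representation.isProj_averageMap (ρ.comp Q.subtype)).trace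
  have h2 : ∑ t : Q, LinearMap.trace ℚ V (ρ t) = 23 := by
    rw [Finset.sum_eq_single 1 (fun t _ ht => trace_zero h (hQ _ t.2 fun e => ht (Subtype.ext e))) (by simp),
      OneMemClass.coe_one, map_one, LinearMap.trace_one, h.dim]; rfl
  simp only [Representation.averageMap, GroupAlgebra.average, map_smul, map_sum, MonoidAlgebra.of_apply,
    Representation.asAlgebraHom_single_one, MonoidHom.comp_apply, Subgroup.coe_subtype, h2, invOf_eq_inv,
    smul_eq_mul] at h1
  rw [Nat.card_eq_fintype_card]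
  have : (Fintype.card Q : ℚ) * finrank ℚ (Representation.invariants (ρ.comp Q.subtype)) = 23 := by
    rw [← h1, mul_inv_cancel_left₀ hc]
  exact_mod_cast this

end Sc

open Sc in
theorem schurThm : SchurThm.{u} := fun G _ _ V _ _ ρ β L h hi => by
  haveI : Fact (Nat.Prime 23) := ⟨by norm_num⟩
  obtain ⟨σ, hσ⟩ := exists_prime_orderOf_dvd_card 23 (dvd h hi)
  refine ⟨σ, avg h hi, hσ, fun hd => ?_, fun q hq hd => ?_, ?_⟩
  · obtain ⟨Q, hQ⟩ := Sylow.exists_subgroup_card_pow_prime 23 (G := G) (n := 2) (by rwa [Nat.card_eq_fintype_card])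
    have := fix_dim h Q fun t ht h1 => orderOf_eq_prime (by_contra fun h2 => by
      have h3 := tot_le h (t := t) (q := 23) (k := 1) Fact.out
        (congrArg Subtype.val (hQ ▸ pow_card_eq_one' (x := (⟨t, ht⟩ : Q)))) (by rwa [pow_one])
      omega) h1
    rw [hQ] at this
    omega
  · haveI := Fact.mk hq
    obtain ⟨t, ht⟩ := exists_prime_orderOf_dvd_card q hd
    have := tot_le h (t := t) (k := 0) hq (by rw [zero_add, pow_one, ← ht, pow_orderOf_eq_one]) fun e => by
      rw [pow_zero, pow_one] at e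
      rw [e, orderOf_one] at ht
      exact hq.one_lt.ne ht
    rw [pow_zero, one_mul] at this
    have h1 : q ≠ 24 := fun e => absurd (e ▸ hq) (by norm_num)
    omega
  · have h0 : σ ^ 23 = 1 := by rw [← hσ, pow_orderOf_eq_one]
    have := fix_dim h (Subgroup.zpowers σ) fun t ht h1 => orderOf_eq_prime (by
      obtain ⟨k, rfl⟩ := Subgroup.mem_zpowers_iff.1 ht
      rw [← zpow_natCast, ← zpow_mul, mul_comm, zpow_mul, zpow_natCast, h0, one_zpow]) h1
    rw [Nat.card_zpowers, hσ] at this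
    obtain ⟨w, hw, h1⟩ := finrank_eq_one_iff'.1 (show finrank ℚ (Representation.invariants
      (ρ.comp (Subgroup.zpowers σ).subtype)) = 1 by omega)
    refine ⟨w, fun e => hw (Subtype.ext e), w.2 ⟨σ, Subgroup.mem_zpowers σ⟩, fun v hv => ?_⟩
    have h2 : ∀ k : ℕ, ρ (σ ^ k) v = v := fun k => by
      induction k with
      | zero => simp
      | succ k ih => rw [pow_succ, rho_mul, hv, ih]
    obtain ⟨c, hc⟩ := h1 ⟨v, fun t => by
      obtain ⟨k, hk⟩ := mem_powers_iff_mem_zpowers.2 t.2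
      exact (congrArg (fun x => ρ x v) hk).symm.trans (h2 k)⟩
    exact ⟨c, (congrArg Subtype.val hc).symm⟩

end CL.F23
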