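/-
The shape of the discriminant group of an invariant lattice centralized by an element of order 23.
-/
import Cfsg.Agent.Lat.F1

set_option autoImplicit false

open Module

namespace CL.F23

universe u

theorem shape_dvd_sum {G : Type u} [Group G] [Fintype G] (H : Subgroup G) (F : G → ℤ)
    (hF : ∀ g, ∀ h ∈ H, F (g * h) = F g) : (Nat.card H : ℤ) ∣ ∑ g, F g := by
  classical
  let φ : (G ⧸ H) × H → G := fun p => p.1.out * p.2
  have hφ : Function.Bijective φ := by
    constructor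
    · rintro ⟨q, h⟩ ⟨q', h'⟩ e
      have e' : q.out * (h : G) = q'.out * h' := e
      have h1 : q = q' := by
        have := congrArg (QuotientGroup.mk (s := H)) e'
        rwa [QuotientGroup.mk_mul_of_mem _ h.2, QuotientGroup.mk_mul_of_mem _ h'.2, QuotientGroup.out_eq',
          QuotientGroup.out_eq'] at this
      subst h1
      rw [Subtype.ext (mul_left_cancel e')]
    · intro g
      exact ⟨((g : G ⧸ H), ⟨(g : G ⧸ H).out⁻¹ * g, QuotientGroup.eq.1 (QuotientGroup.out_eq' _)⟩), by simp [φ]⟩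
  rw [← hφ.sum_comp, Fintype.sum_prod_type]
  refine Finset.dvd_sum fun q _ => ?_
  rw [Finset.sum_congr rfl fun (h : H) _ => hF q.out h h.2, Finset.sum_const, Finset.card_univ, nsmul_eq_mul,
    Nat.card_eq_fintype_card]
  exact dvd_mul_right _ _

theorem shape_cyc (S : AddSubgroup ℤ) : ∃ d : ℕ, ∀ j : ℤ, j ∈ S ↔ (d : ℤ) ∣ j := by
  obtain ⟨a, ha⟩ := Int.subgroup_cyclic S
  refine ⟨a.natAbs, fun j => ?_⟩
  rw [ha, AddSubgroup.mem_closure_singleton, Int.natAbs_dvd]
  exact ⟨fun ⟨n, h⟩ => ⟨n, by rw [← h, zsmul_eq_mul, mul_comm]; rfl⟩, fun ⟨n, h⟩ => ⟨n, by rw [h, zsmul_eq_mul, mul_comm]; rfl⟩⟩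

variable {G : Type u} [Group G] {V : Type} [AddCommGroup V] [Module ℚ V] {ρ : G →* Module.End ℚ V}
  {β : LinearMap.BilinForm ℚ V} {σ : G} {L : AddSubgroup V}

theorem shape_prim (hR : Rep ρ) (hI : Inv ρ β L) {u0 : V} (h0 : u0 ≠ 0) :
    ∃ c : ℚ, c ≠ 0 ∧ c • u0 ∈ dual β L ∧ ∃ l ∈ L, β l (c • u0) = 1 := by
  have := hR.fin
  obtain ⟨n, hn, h1⟩ := (hI.toLat.dual hI.toPD).full u0
  have hn' : (n : ℚ) ≠ 0 := by positivity
  let S : AddSubgroup ℤ :=
    { carrier := {k | ∃ l ∈ L, β l ((n : ℚ) • u0) = k}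
      zero_mem' := ⟨0, L.zero_mem, by simp⟩
      add_mem' := fun ⟨a, ha, e⟩ ⟨b, hb, e'⟩ => ⟨a + b, L.add_mem ha hb, by
        rw [map_add, LinearMap.add_apply, e, e', Int.cast_add]⟩
      neg_mem' := fun ⟨a, ha, e⟩ => ⟨-a, L.neg_mem ha, by rw [map_neg, LinearMap.neg_apply, e, Int.cast_neg]⟩ }
  obtain ⟨a, ha⟩ := shape_cyc S
  have key : ∀ l ∈ L, ∃ k : ℤ, β l ((n : ℚ) • u0) = a * k := fun l hl => by
    obtain ⟨k, hk⟩ := h1 l hl
    rw [hI.symm] at hk
    obtain ⟨j, hj⟩ := (ha k).1 ⟨l, hl, hk⟩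
    exact ⟨j, by rw [hk, hj]; push_cast; rfl⟩
  have ha0 : (a : ℚ) ≠ 0 := fun e => by
    obtain ⟨m, hm, h2⟩ := hI.full ((n : ℚ) • u0)
    obtain ⟨k, hk⟩ := key _ h2
    rw [e, zero_mul, map_smul β, LinearMap.smul_apply, smul_eq_mul, mul_eq_zero] at hk
    rcases hk with hk | hk
    · exact (by positivity : (m : ℚ) ≠ 0) hk
    · exact smul_ne_zero hn' h0 (hI.toPD.eq_zero hk)
  refine ⟨(a : ℚ)⁻¹ * n, mul_ne_zero (inv_ne_zero ha0) hn', fun l hl => ?_, ?_⟩
  · obtain ⟨k, hk⟩ := key l hl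
    refine ⟨k, ?_⟩
    rw [hI.symm, mul_smul, map_smul, hk, smul_eq_mul, inv_mul_cancel_left₀ ha0]
  · obtain ⟨l, hl, e⟩ := (ha a).2 dvd_rfl
    refine ⟨l, hl, ?_⟩
    rw [mul_smul, map_smul, e, smul_eq_mul, Int.cast_natCast, inv_mul_cancel₀ ha0]

theorem shapeThm : ShapeThm.{u} := by
  intro G _ _ V _ _ ρ β σ L e hR hA hI hT
  have := hR.fin
  obtain ⟨u0, h0, hf0, hl0⟩ := hA.line
  obtain ⟨c0, hc0, hud, l, hl, hl1⟩ := shape_prim hR hI h0
  set u := c0 • u0 with hu
  have hfix : ρ σ u = u := by rw [hu, map_smul, hf0]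
  have hline : ∀ v, ρ σ v = v → ∃ c : ℚ, v = c • u := fun v hv => by
    obtain ⟨c, hc⟩ := hl0 v hv
    exact ⟨c * c0⁻¹, by rw [hu, smul_smul, mul_assoc, inv_mul_cancel₀ hc0, mul_one, hc]⟩
  have hune : u ≠ 0 := smul_ne_zero hc0 h0
  clear_value u
  have hint : ∀ c : ℚ, c • u ∈ dual β L → IsInt c := fun c hc => by
    have := hc l hl
    rwa [map_smul, LinearMap.smul_apply, hI.symm, hl1, smul_eq_mul, mul_one] at this
  have hfp : ∀ i : ℕ, ρ (σ ^ i) u = u := fun i => by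
    induction i with
    | zero => simp
    | succ i ih => rw [pow_succ, rho_mul, hfix, ih]
  have hN : ∀ y ∈ dual β L, ∃ c : ℤ, ∑ i ∈ Finset.range 23, ρ (σ ^ i) y = (c : ℚ) • u := fun y hy => by
    obtain ⟨c, hc⟩ := hline (∑ i ∈ Finset.range 23, ρ (σ ^ i) y) (by
      have e : σ ^ 23 = σ ^ 0 := by rw [← hA.ord, pow_orderOf_eq_one, pow_zero]
      rw [map_sum]
      simp_rw [← rho_mul, ← pow_succ']
      rw [Finset.sum_range_succ, Finset.sum_range_succ' _ 22, e])
    obtain ⟨k, hk⟩ := hint c (hc ▸ (dual β L).sum_mem fun i _ => hI.stab_dual _ hy)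
    exact ⟨k, by rw [hc, hk]⟩
  have htr : ∀ y ∈ dual β L, ∀ i : ℕ, ρ (σ ^ i) y - y ∈ L := fun y hy i => by
    induction i with
    | zero => simp
    | succ i ih =>
      have := L.add_mem (hT.triv _ (hI.stab_dual (σ ^ i) hy)) ih
      rwa [sub_add_sub_cancel, ← rho_mul, ← pow_succ'] at this
  have hmd : ∀ y, y ∈ dual β L ↔ ∃ j : ℤ, y - (j : ℚ) • u ∈ L := fun y => by
    constructor
    · intro hy
      obtain ⟨c, hc⟩ := hN y hy
      have h1 : (c : ℚ) • u - (23 : ℚ) • y ∈ L := by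
        have := L.sum_mem (t := Finset.range 23) fun i _ => htr y hy i
        rwa [Finset.sum_sub_distrib, hc, Finset.sum_const, Finset.card_range, ← Nat.cast_smul_eq_nsmul ℚ] at this
      have hco : IsCoprime (23 : ℤ) (e : ℤ) :=
        Nat.isCoprime_iff_coprime.2 ((Nat.Prime.coprime_iff_not_dvd (by norm_num : Nat.Prime 23)).2 hT.cop)
      obtain ⟨a, b, hab⟩ := hco
      have hab' : (a : ℚ) * 23 + b * e = 1 := by exact_mod_cast hab
      refine ⟨a * c, ?_⟩
      have := L.sub_mem ((IsInt.cast b).smul_mem (hT.exp y hy)) ((IsInt.cast a).smul_mem h1)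
      convert this using 1
      rw [Int.cast_mul]
      conv_lhs => rw [← one_smul ℚ y, ← hab']
      module
    · rintro ⟨j, hj⟩
      have := (dual β L).add_mem (hI.le_dual hj) ((IsInt.cast j).smul_mem hud)
      rwa [sub_add_cancel] at this
  let J : AddSubgroup ℤ :=
    { carrier := {j | (j : ℚ) • u ∈ L}
      zero_mem' := by simp
      add_mem' := fun {a b} ha hb => by
        have := L.add_mem ha hb
        rwa [← add_smul, ← Int.cast_add] at this
      neg_mem' := fun {a} ha => by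
        have := L.neg_mem ha
        rwa [← neg_smul, ← Int.cast_neg] at this }
  obtain ⟨d, hd⟩ := shape_cyc J
  have hordu : ∀ j : ℤ, (j : ℚ) • u ∈ L ↔ (d : ℤ) ∣ j := hd
  have hde : d ∣ e := by
    have := (hordu e).1 (by simpa using hT.exp u hud)
    exact_mod_cast this
  have hd0 : 0 < d := Nat.pos_of_ne_zero fun h => hT.sqf.ne_zero (by simpa [h] using hde)
  have hdq : (d : ℚ) ≠ 0 := by positivity
  have hw : (d : ℚ) • u ∈ L := by simpa using (hordu d).2 dvd_rfl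
  obtain ⟨n, hn⟩ := hud _ hw
  have hn' : d * β u u = n := by rw [← hn, map_smul, smul_eq_mul]
  have hnpos : 0 < n := by
    have : (0 : ℚ) < n := hn' ▸ mul_pos (by exact_mod_cast hd0) (hI.pos u hune)
    exact_mod_cast this
  have hn23 : n ∣ 23 := by
    obtain ⟨c, hc⟩ := hN l (hI.le_dual hl)
    obtain ⟨k, hk⟩ := (hordu c).1 (hc ▸ L.sum_mem fun i _ => hI.stab _ _ hl)
    have h1 := congrArg (fun z => β z u) hc
    have h2 : ∀ i : ℕ, β (ρ (σ ^ i) l) u = 1 := fun i => by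
      conv_lhs => rw [← hfp i]
      rw [hI.inv, hl1]
    simp only [map_sum, LinearMap.sum_apply, h2, map_smul, LinearMap.smul_apply, Finset.sum_const,
      Finset.card_range, smul_eq_mul, nsmul_eq_mul] at h1
    refine ⟨k, ?_⟩
    have : (23 : ℚ) = n * k := by rw [← hn']; rw [hk] at h1; push_cast at h1; linarith
    exact_mod_cast this
  have h23n : (23 : ℤ) ∣ n := by
    obtain ⟨b, hb⟩ := hI.toLat.exists_basis hR.dim
    let T : Module.End ℚ V := (b.coord 0).smulRight (b 0)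
    have hTL : ∀ x ∈ L, T x ∈ L := fun x hx => ((hb x).1 hx 0).smul_mem (hb.mem 0)
    have htrace : LinearMap.trace ℚ V T = 1 := by
      rw [LinearMap.trace_smulRight]; simp
    have hF : ∀ g : G, ∃ k : ℤ, β (ρ g⁻¹ (T (ρ g ((d : ℚ) • u)))) u = k := fun g => by
      rw [hI.symm]; exact hud _ (hI.stab _ _ (hTL _ (hI.stab _ _ hw)))
    choose F hF using hF
    have hdvd := shape_dvd_sum (Subgroup.zpowers σ) F fun g h hh => by
      obtain ⟨i, rfl⟩ := (mem_powers_iff_mem_zpowers.2 hh)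
      have : (F (g * σ ^ i) : ℚ) = F g := by
        rw [← hF, ← hF, mul_inv_rev, rho_mul, rho_mul, hI.adj, inv_inv, hfp, map_smul (ρ (σ ^ i)), hfp]
      exact_mod_cast this
    rw [Nat.card_zpowers, hA.ord] at hdvd
    obtain ⟨m, hm⟩ : 23 ∣ Fintype.card G := hA.ord ▸ orderOf_dvd_card
    have h1 := congrArg (fun A : Module.End ℚ V => β (A ((d : ℚ) • u)) u) (hA.avg T)
    simp only [htrace, LinearMap.sum_apply, map_sum, Module.End.mul_apply] at h1
    rw [← Equiv.sum_comp (Equiv.inv G)] at h1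
    simp only [Equiv.inv_apply, inv_inv, hF] at h1
    rw [LinearMap.smul_apply, Module.End.one_apply, map_smul, LinearMap.smul_apply, hI.symm, hn, hm] at h1
    have h2 : ∑ g, F g = m * n := by
      have : ((∑ g, F g : ℤ) : ℚ) = m * n := by
        push_cast at h1 ⊢
        rw [h1, smul_eq_mul]; ring
      exact_mod_cast this
    rw [h2] at hdvd
    rcases (Int.Prime.dvd_mul' (by norm_num : Nat.Prime 23) hdvd) with h | h
    · exfalso
      apply hA.nsq
      rw [hm, pow_two]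
      exact Nat.mul_dvd_mul_left _ (by exact_mod_cast h)
    · exact_mod_cast h
  have hn_eq : n = 23 := Int.dvd_antisymm hnpos.le (by norm_num) hn23 h23n
  refine ⟨u, d, ⟨hR, hI, hA.ord, hfix, hline, hmd, hordu, ⟨l, hl, hl1⟩, hd0, ?_⟩, hT.sqf.squarefree_of_dvd hde⟩
  rw [hn_eq] at hn'
  field_simp
  push_cast at hn'
  linarith

end CL.F23
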