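/-
Finite rational linear groups of degree 23: an element of order 23 centralizes the discriminant group.
-/
import Cfsg.Agent.Lat.F1
import Cfsg.Agent.Cls.SympBasis

set_option autoImplicit false

open Module

namespace CL.F23

universe u

namespace TrA

theorem arith {q k j : ℕ} (hq : q < 22) (hk : k < 12) (h2 : 2 ≤ q) (hj : j ≤ k) (h : q ^ k % 23 = q ^ j % 23) :
    j = k ∨ j = 0 ∧ k = 11 := by
  have : ∀ (q : Fin 22) (k j : Fin 12), 2 ≤ q.1 → j.1 ≤ k.1 → q.1 ^ k.1 % 23 = q.1 ^ j.1 % 23 →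
      j.1 = k.1 ∨ j.1 = 0 ∧ k.1 = 11 := by decide +kernel
  exact this ⟨q, hq⟩ ⟨k, hk⟩ ⟨j, by omega⟩ h2 hj h

/-- an isometry of order 23 of a small orthogonal space is trivial -/
theorem fin_triv {A : Type} [AddCommGroup A] [Finite A] {q : ℕ} [hp : Fact q.Prime] (hq : q < 22) [Module (ZMod q) A]
    (hc : Nat.card A ≤ q ^ 11) (s : Module.End (ZMod q) A) (hs : s ^ 23 = 1) (B : LinearMap.BilinForm (ZMod q) A)
    (sy : ∀ a b, B a b = B b a) (iv : ∀ a b, B (s a) (s b) = B a b) (nd : ∀ a, (∀ b, B a b = 0) → a = 0) (a : A) :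
    s a = a := by
  classical
  have := Fintype.ofFinite A
  have : Fact (Nat.Prime 23) := ⟨by norm_num⟩
  have h1 := Equiv.Perm.card_fixedPoints_modEq (f := (s : A → A)) (p := 23) (n := 1)
    ((hom_coe_pow (fun g : Function.End A => g) rfl (fun _ _ => rfl) (s : A → A) _).trans (funext fun x => by
      rw [pow_one, ← Module.End.pow_apply, hs]; rfl))
  have h2 : Nat.card (Function.fixedPoints s) = Nat.card (LinearMap.ker (s - 1)) :=
    Nat.card_congr (Equiv.subtypeEquivRight fun x => by simp [Function.IsFixedPt, sub_eq_zero])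
  rw [← Nat.card_eq_fintype_card, ← Nat.card_eq_fintype_card, h2, Module.natCard_eq_pow_finrank (K := ZMod q),
    Module.natCard_eq_pow_finrank (K := ZMod q) (V := LinearMap.ker _), Nat.card_zmod] at h1
  rw [Module.natCard_eq_pow_finrank (K := ZMod q), Nat.card_zmod, Nat.pow_le_pow_iff_right hp.out.one_lt] at hc
  have h0 := Submodule.finrank_le (LinearMap.ker (s - 1))
  rcases arith hq (by omega) hp.out.two_le h0 h1 with h | ⟨h, h'⟩
  · have := Submodule.eq_top_iff'.1 (Submodule.eq_top_of_finrank_eq h) a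
    simpa [sub_eq_zero] using this
  have h3 := Cls.even_finrank_of_alt (B.compl₂ s - B ∘ₗ s) (fun x hx => ?_) fun x => by simp [sy x]
  · rw [h'] at h3
    exact absurd h3 (by decide)
  have h4 : s (s x) = x := (sub_eq_zero.1 (nd _ fun b => by
    have e : b = s ((s ^ 22) b) := by rw [← Module.End.mul_apply, ← pow_succ', hs]; rfl
    have := hx ((s ^ 22) b)
    simp only [LinearMap.sub_apply, LinearMap.compl₂_apply, LinearMap.comp_apply] at this
    rw [e, map_sub, LinearMap.sub_apply, iv, this])).symm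
  have h5 : ∀ n, ((s * s) ^ n) x = x := fun n => by
    induction n with
    | zero => rfl
    | succ n ih => rw [pow_succ, Module.End.mul_apply, Module.End.mul_apply, h4, ih]
  refine (Submodule.eq_bot_iff _).1 (Submodule.finrank_eq_zero.1 h) x ?_
  have h6 := congrArg s (h5 11)
  rw [← sq, ← pow_mul, ← Module.End.mul_apply, ← pow_succ', hs] at h6
  simpa [sub_eq_zero] using h6.symm

theorem fin_triv' {A : Type} [AddCommGroup A] [Finite A] {q : ℕ} [Fact q.Prime] (hq : q < 22) (hA : ∀ a : A, q • a = 0)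
    (hc : Nat.card A ≤ q ^ 11) (s : A →+ A) (hs : ∀ a, s^[23] a = a) (f : A →+ A →+ ZMod q)
    (sy : ∀ a b, f a b = f b a) (iv : ∀ a b, f (s a) (s b) = f a b) (nd : ∀ a, (∀ b, f a b = 0) → a = 0) (a : A) :
    s a = a := by
  let _ : Module (ZMod q) A := AddCommGroup.zmodModule hA
  exact fin_triv hq hc (s.toZModLinearMap q) (LinearMap.ext fun a => (Module.End.pow_apply _ _ _).trans (hs a))
    (LinearMap.mk₂ (ZMod q) (fun a b => f a b) (fun _ _ _ => by simp) (fun c a b => ZMod.map_smul (f.flip b) c a)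
      (fun _ _ _ => by simp) fun c a b => ZMod.map_smul (f a) c b) sy iv nd a

variable {G : Type u} [Group G] {V : Type} [AddCommGroup V] [Module ℚ V] {ρ : G →* Module.End ℚ V}
  {β : LinearMap.BilinForm ℚ V} {σ : G} {L M : AddSubgroup V}

theorem lat_triv {q : ℕ} (hp : q.Prime) (hq : q < 22) (s : Module.End ℚ V) (hs : s ^ 23 = 1) (hM : ∀ x ∈ M, s x ∈ M)
    (hL : ∀ x ∈ L, s x ∈ L) (h0 : L.relIndex M ≠ 0) (hc : L.relIndex M ≤ q ^ 11) (hx : ∀ x ∈ M, (q : ℚ) • x ∈ L)
    (sy : ∀ a b, β a b = β b a) (iv : ∀ a b, β (s a) (s b) = β a b) (hi : ∀ a ∈ M, ∀ x ∈ L, IsInt (β a x))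
    (nd : ∀ a ∈ M, (∀ b ∈ M, IsInt (β a b)) → a ∈ L) : ∀ y ∈ M, s y - y ∈ L := by
  have := Fact.mk hp
  have q0 : (q : ℚ) ≠ 0 := Nat.cast_ne_zero.2 hp.ne_zero
  choose n hn using fun a b : M => hi a a.2 _ (hx b b.2)
  simp only [map_smul, smul_eq_mul] at hn
  have n1 : ∀ a b c, n a (b + c) = n a b + n a c := fun a b c => by
    rw [← Int.cast_inj (α := ℚ)]; simp [← hn, mul_add]
  have n2 : ∀ a b, n a b = n b a := fun a b => by rw [← Int.cast_inj (α := ℚ), ← hn, ← hn, sy]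
  have n3 : ∀ a b, (n a b : ZMod q) = 0 ↔ IsInt (β a b) := fun a b => by
    rw [ZMod.intCast_zmod_eq_zero_iff_dvd]
    exact ⟨fun ⟨k, hk⟩ => ⟨k, mul_left_cancel₀ q0 (by rw [hn, hk]; simp)⟩, fun ⟨k, hk⟩ =>
      ⟨k, by rw [← Int.cast_inj (α := ℚ), ← hn, hk]; simp⟩⟩
  let f : M →+ M →+ ZMod q := AddMonoidHom.mk' (fun a => AddMonoidHom.mk' (fun b => (n a b : ZMod q))
    fun b c => by rw [n1, Int.cast_add]) fun a b => by ext c; simp [n2 _ c, n1]
  let K := L.addSubgroupOf M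
  have : Finite (M ⧸ K) := Nat.finite_of_card_ne_zero h0
  let f1 : M →+ M ⧸ K →+ ZMod q := (QuotientAddGroup.lift K f.flip fun b hb =>
    AddMonoidHom.ext fun a => (n3 a b).2 (hi a a.2 b hb)).flip
  let f2 : M ⧸ K →+ M ⧸ K →+ ZMod q := QuotientAddGroup.lift K f1 fun a ha => AddMonoidHom.ext fun b => by
    obtain ⟨b, rfl⟩ := QuotientAddGroup.mk_surjective b
    exact (n3 a b).2 (sy _ _ ▸ hi b b.2 a ha)
  have hB : ∀ a b : M, f2 a b = n a b := fun _ _ => rfl
  let s1 : M →+ M := (s.toAddMonoidHom.comp M.subtype).codRestrict M fun x => hM x x.2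
  let s2 : M ⧸ K →+ M ⧸ K := QuotientAddGroup.map K K s1 fun x hx => hL x hx
  have h2 : ∀ a : M, s2 a = s1 a := fun _ => rfl
  have h3 : ∀ (k : ℕ) (a : M), ∃ b : M, s2^[k] a = b ∧ (s ^ k) a = b := fun k a => by
    induction k with
    | zero => exact ⟨a, rfl, rfl⟩
    | succ k ih =>
      obtain ⟨b, e1, e2⟩ := ih
      exact ⟨s1 b, by rw [Function.iterate_succ_apply', e1, h2], by rw [pow_succ', Module.End.mul_apply, e2]; rfl⟩
  intro y hy
  have := fin_triv' hq (fun a => ?_) hc s2 (fun a => ?_) f2 (fun a b => ?_) (fun a b => ?_) (fun a ha => ?_)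
    ((⟨y, hy⟩ : M) : M ⧸ K)
  · exact (QuotientAddGroup.eq_iff_sub_mem.1 this :)
  · obtain ⟨a, rfl⟩ := QuotientAddGroup.mk_surjective a
    rw [← QuotientAddGroup.mk_nsmul, QuotientAddGroup.eq_zero_iff, AddSubgroup.mem_addSubgroupOf]
    simpa [Nat.cast_smul_eq_nsmul] using hx a a.2
  · obtain ⟨a, rfl⟩ := QuotientAddGroup.mk_surjective a
    obtain ⟨b, e1, e2⟩ := h3 23 a
    rw [hs] at e2
    rw [e1, ← Subtype.ext (show (a : V) = b from e2)]
  · obtain ⟨a, rfl⟩ := QuotientAddGroup.mk_surjective a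
    obtain ⟨b, rfl⟩ := QuotientAddGroup.mk_surjective b
    rw [hB, hB, n2]
  · obtain ⟨a, rfl⟩ := QuotientAddGroup.mk_surjective a
    obtain ⟨b, rfl⟩ := QuotientAddGroup.mk_surjective b
    rw [h2, h2, hB, hB, show n (s1 a) (s1 b) = n a b by
      rw [← Int.cast_inj (α := ℚ), ← hn, ← hn]; exact congrArg _ (iv _ _)]
  · obtain ⟨a, rfl⟩ := QuotientAddGroup.mk_surjective a
    exact (QuotientAddGroup.eq_zero_iff a).2 (nd a a.2 fun b hb => (n3 a ⟨b, hb⟩).1 (ha ((⟨b, hb⟩ : M) : M ⧸ K)))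

theorem mem_cop {a b : ℤ} (h : IsCoprime a b) {z : V} (ha : (a : ℚ) • z ∈ M) (hb : (b : ℚ) • z ∈ M) : z ∈ M := by
  obtain ⟨s, t, e⟩ := h
  have := M.add_mem ((IsInt.cast s).smul_mem ha) ((IsInt.cast t).smul_mem hb)
  rwa [smul_smul, smul_smul, ← add_smul, show (s : ℚ) * a + t * b = 1 by exact_mod_cast e, one_smul] at this

theorem int_cop {a b : ℤ} (h : IsCoprime a b) {z : ℚ} (ha : IsInt (a * z)) (hb : IsInt (b * z)) : IsInt z := by
  obtain ⟨s, t, e⟩ := h
  have := ((IsInt.cast s).mul ha).add ((IsInt.cast t).mul hb)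
  rwa [← mul_assoc, ← mul_assoc, ← add_mul, show (s : ℚ) * a + t * b = 1 by exact_mod_cast e, one_mul] at this

/-- primes not dividing `|G| / 23` do not divide the discriminant -/
theorem le_of_not_dvd [Fintype G] (r : Rep ρ) (av : Avg ρ σ) (i : Inv ρ β L) (mn : Mn β L) {m q : ℕ}
    (hm : Fintype.card G = 23 * m) (hp : q.Prime) (hq : ¬ q ∣ m) {y : V} (hy : y ∈ dual β L) (hy' : (q : ℚ) • y ∈ L) :
    y ∈ L := by
  have := r.fin
  have q0 : (q : ℚ) ≠ 0 := Nat.cast_ne_zero.2 hp.ne_zero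
  by_contra c
  obtain ⟨b, hb⟩ := i.toLat.exists_basis r.dim
  obtain ⟨j, hj⟩ := not_forall.1 (mt (hb y).2 c)
  obtain ⟨k, hk⟩ := (hb _).1 hy' j
  rw [map_smul, Finsupp.smul_apply, smul_eq_mul] at hk
  have h1 : IsCoprime ((m : ℤ) * k) q := by
    refine ((Nat.prime_iff_prime_int.1 hp).irreducible.coprime_iff_not_dvd.2 fun d => ?_).symm
    rcases (Nat.prime_iff_prime_int.1 hp).dvd_or_dvd d with d | ⟨l, rfl⟩
    · exact hq (Int.natCast_dvd_natCast.1 d)
    · exact hj ⟨l, mul_left_cancel₀ q0 (by rw [hk]; simp)⟩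
  have h2 : dual β L ⊓ divq q L = divq q L := inf_eq_right.2 fun z hz => by
    refine mem_cop h1 ?_ (i.le_dual hz)
    have h3 := LinearMap.congr_fun (av.avg ((b.coord j).smulRight y)) ((q : ℚ) • z)
    rw [LinearMap.trace_smulRight, hm, LinearMap.smul_apply, Module.End.one_apply, smul_smul, LinearMap.sum_apply,
      show ((23 * m : ℕ) : ℚ) / 23 * b.coord j y * q = ((m : ℤ) * k : ℤ) by
        push_cast; rw [← hk, Basis.coord_apply]; ring] at h3
    rw [← h3]
    refine sum_mem fun g _ => ?_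
    rw [Module.End.mul_apply, Module.End.mul_apply, LinearMap.smulRight_apply, map_smul]
    exact ((hb _).1 (i.stab _ _ hz) j).smul_mem (i.stab_dual g hy)
  have h3 := mn.rk q hp
  rw [h2, i.toLat.relIndex_divq hp.pos, r.dim, Nat.pow_le_pow_iff_right hp.one_lt] at h3
  omega

end TrA

open TrA in
theorem trThm : TrThm.{u} := fun G _ _ V _ _ ρ β σ L r av i mn => by
  classical
  have := r.fin
  obtain ⟨m, hm⟩ : 23 ∣ Fintype.card G := av.ord ▸ orderOf_dvd_card
  have hD := i.toLat.dual i.toPD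
  have h0 := hD.relIndex_ne_zero i.toLat i.le_dual
  have hex : ∃ e : ℕ, 0 < e ∧ ∀ y ∈ dual β L, (e : ℚ) • y ∈ L :=
    ⟨_, Nat.pos_of_ne_zero h0, fun y hy => by
      rw [Nat.cast_smul_eq_nsmul]; exact AddSubgroup.nsmul_relIndex_mem L hy⟩
  obtain ⟨e0, he⟩ := Nat.find_spec hex
  have hmin : ∀ q k : ℕ, q.Prime → Nat.find hex = q * k → ¬ ∀ y ∈ dual β L, (k : ℚ) • y ∈ L := fun q k hq e h => by
    have k0 : 0 < k := Nat.pos_of_ne_zero fun c => by simp [e, c] at e0
    exact Nat.find_min hex (by rw [e]; nlinarith [hq.two_le]) ⟨k0, h⟩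
  generalize Nat.find hex = e at e0 he hmin
  have sq : Squarefree e := Nat.squarefree_iff_prime_squarefree.2 fun q hq ⟨k, hk⟩ =>
    hmin q (q * k) hq (by rw [hk, mul_assoc]) fun y hy => by
      have := mn.sqf q hq _ ((IsInt.nat k).smul_mem hy) (by
        rw [smul_smul, show (q : ℚ) ^ 2 * k = e by rw [hk]; push_cast; ring]; exact he y hy)
      rwa [smul_smul, ← Nat.cast_mul] at this
  have dv : ∀ q : ℕ, q.Prime → q ∣ e → q ∣ m := fun q hq ⟨k, hk⟩ => by_contra fun c =>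
    hmin q k hq hk fun y hy => le_of_not_dvd r av i mn hm hq c ((IsInt.nat k).smul_mem hy) (by
      rw [smul_smul, ← Nat.cast_mul, ← hk]; exact he y hy)
  have n23 : ¬ 23 ∣ e := fun c => av.nsq (by rw [hm, pow_two]; exact Nat.mul_dvd_mul_left _ (dv 23 (by norm_num) c))
  have cop : ∀ q k : ℕ, q * k ∣ e → IsCoprime (q : ℤ) k := fun q k h =>
    Nat.isCoprime_iff_coprime.2 (Nat.coprime_of_squarefree_mul (sq.squarefree_of_dvd h))
  have pr : ∀ q : ℕ, q.Prime → q ∣ e → ∀ y ∈ dual β L ⊓ divq q L, ρ σ y - y ∈ L := fun q hq hd => by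
    have h1 := av.prm q hq (hm ▸ (dv q hq hd).mul_left _)
    have h2 : q ≠ 23 := fun c => n23 (c ▸ hd)
    have h3 : q ≠ 22 := fun c => by rw [c] at hq; norm_num at hq
    obtain ⟨k, hk⟩ := hd
    refine lat_triv hq (by omega) (ρ σ) (by rw [← map_pow, ← av.ord, pow_orderOf_eq_one, map_one])
      (fun x hx => ⟨i.stab_dual σ hx.1, ?_⟩) (i.stab σ) (fun c => h0 (AddSubgroup.relIndex_eq_zero_of_le_right
        inf_le_left c)) (mn.rk q hq) (fun x hx => hx.2) i.symm (i.inv σ) (fun a ha => ha.1) fun a ha h => ?_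
    · refine mem_divq.2 ?_
      rw [← map_smul]
      exact i.stab σ _ hx.2
    · rw [← i.toLat.dual_dual i.toPD]
      refine fun y hy => int_cop (cop q k hk.symm.dvd) ?_ ?_
      · simpa [i.symm y] using hy _ ha.2
      · simpa using h _ ⟨(IsInt.nat k).smul_mem hy, mem_divq.2 (by
          rw [smul_smul, ← Nat.cast_mul, ← hk]; exact he y hy)⟩
  have key : ∀ n : ℕ, n ∣ e → ∀ y ∈ dual β L, (n : ℚ) • y ∈ L → ρ σ y - y ∈ L := fun n => by
    induction n using induction_on_primes with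
    | zero => exact fun h => absurd (Nat.eq_zero_of_zero_dvd h) e0.ne'
    | one => exact fun _ y _ h => by rw [Nat.cast_one, one_smul] at h; exact L.sub_mem (i.stab σ y h) h
    | prime_mul q k hq ih =>
      intro h y hy hn
      refine mem_cop (cop q k h) ?_ ?_
      · simpa [smul_sub] using ih (dvd_of_mul_left_dvd h) _ ((IsInt.nat q).smul_mem hy) (by
          rwa [smul_smul, ← Nat.cast_mul, mul_comm])
      · simpa [smul_sub] using pr q hq (dvd_of_mul_right_dvd h) _ ⟨(IsInt.nat k).smul_mem hy, mem_divq.2 (by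
          rwa [smul_smul, ← Nat.cast_mul])⟩
  exact ⟨e, sq, n23, he, fun y hy => key e dvd_rfl y hy (he y hy)⟩

end CL.F23
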