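/-
Degree 23: an even invariant lattice of discriminant 2 has a root.
-/
import Cfsg.Agent.Lat.F1
import Cfsg.Agent.S1569
import Cfsg.Agent.S5592

set_option autoImplicit false

open Module Cfsg

namespace CL.F23

universe u

theorem IsEv.add' {a b : ℚ} : IsEv a → IsEv b → IsEv (a + b) := fun ⟨m, h⟩ ⟨n, k⟩ =>
  ⟨m + n, by rw [h, k]; push_cast; ring⟩

theorem IsEv.neg' {a : ℚ} : IsEv a → IsEv (-a) := fun ⟨m, h⟩ => ⟨-m, by rw [h]; push_cast; ring⟩

section nb

variable {W : Type} [AddCommGroup W] [Module ℚ W]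

/-- The neighbour of `N` at `a/2`. -/
def nbr (γ : LinearMap.BilinForm ℚ W) (N : AddSubgroup W) (a : W) : AddSubgroup W where
  carrier := {p | ∃ k : ℤ, p - ((k : ℚ) / 2) • a ∈ N ∧ IsEv (γ (p - ((k : ℚ) / 2) • a) a)}
  zero_mem' := ⟨0, by simp, 0, by simp⟩
  add_mem' := fun {p q} ⟨i, h1, h2⟩ ⟨j, k1, k2⟩ => by
    have e : p + q - (((i + j : ℤ) : ℚ) / 2) • a = (p - ((i : ℚ) / 2) • a) + (q - ((j : ℚ) / 2) • a) := by
      push_cast; rw [add_div, add_smul]; abel
    exact ⟨i + j, e ▸ N.add_mem h1 k1, by rw [e, map_add, LinearMap.add_apply]; exact h2.add' k2⟩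
  neg_mem' := fun {p} ⟨i, h1, h2⟩ => by
    have e : -p - (((-i : ℤ) : ℚ) / 2) • a = -(p - ((i : ℚ) / 2) • a) := by
      push_cast; rw [neg_div, neg_smul]; abel
    exact ⟨-i, e ▸ N.neg_mem h1, by rw [e, map_neg, LinearMap.neg_apply]; exact h2.neg'⟩

variable {γ : LinearMap.BilinForm ℚ W} {N : AddSubgroup W} {a v : W}

theorem mem_nbr {p : W} :
    p ∈ nbr γ N a ↔ ∃ k : ℤ, p - ((k : ℚ) / 2) • a ∈ N ∧ IsEv (γ (p - ((k : ℚ) / 2) • a) a) := Iff.rfl

theorem mem_nbr_of {p : W} (h : p ∈ N) (h' : IsEv (γ p a)) : p ∈ nbr γ N a := ⟨0, by simpa using h, by simpa using h'⟩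

theorem half_mem_nbr : ((1 : ℚ) / 2) • a ∈ nbr γ N a := ⟨1, by simp, 0, by simp⟩

theorem nbr_lat (hN : Lat N) (hd : dual γ N = N) (ha : a ∈ N) : Lat (nbr γ N a) := by
  have hi : ∀ x ∈ N, ∀ y ∈ N, IsInt (γ x y) := fun x hx => mem_dual.1 (hd.symm ▸ hx)
  constructor
  · obtain ⟨S, hS, hf⟩ := (AddSubgroup.fg_iff _).1 hN.fg
    let t : W →+ W := DistribSMul.toAddMonoidHom W ((1 : ℚ) / 2)
    refine fg_of_le (L := N.map t) ?_ ?_
    · rw [← hS, AddMonoidHom.map_closure]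
      exact (AddSubgroup.fg_iff _).2 ⟨_, rfl, hf.image _⟩
    · rintro p ⟨k, h1, -⟩
      refine ⟨_, N.add_mem ((IsInt.nat 2).smul_mem h1) ((IsInt.cast k).smul_mem ha), ?_⟩
      change ((1 : ℚ) / 2) • _ = p
      simp only [smul_add, smul_sub, smul_smul]
      push_cast
      rw [show (1 : ℚ) / 2 * 2 = 1 by norm_num, one_smul, show (1 : ℚ) / 2 * (2 * (k / 2)) = 1 / 2 * k by ring]
      abel
  · intro x
    obtain ⟨m, hm, hx⟩ := hN.full x
    refine ⟨2 * m, by omega, ?_⟩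
    obtain ⟨c, hc⟩ := hi _ hx _ ha
    rw [Nat.cast_mul, mul_smul]
    exact mem_nbr_of ((IsInt.nat 2).smul_mem hx) ⟨c, by rw [map_smul, LinearMap.smul_apply, hc]; simp⟩

theorem nbr_ev (hγ : PD γ) (he : ∀ x ∈ N, IsEv (γ x x)) (ha : γ a a = 16) : ∀ p ∈ nbr γ N a, IsEv (γ p p) := by
  rintro p ⟨k, h1, m, hm⟩
  obtain ⟨n, hn⟩ := he _ h1
  refine ⟨n + k * m + 2 * k ^ 2, ?_⟩
  rw [show p = (p - ((k : ℚ) / 2) • a) + ((k : ℚ) / 2) • a by abel, hγ.norm_add, hn]
  simp only [map_smul, LinearMap.smul_apply, smul_eq_mul, hm, ha]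
  push_cast; ring

theorem nbr_dual (hγ : PD γ) (hd : dual γ N = N) (he : ∀ x ∈ N, IsEv (γ x x)) (haN : a ∈ N) (ha : γ a a = 16)
    (hv : v ∈ N) (hva : γ v a = 3) : dual γ (nbr γ N a) = nbr γ N a := by
  have hi : ∀ x ∈ N, ∀ y ∈ N, IsInt (γ x y) := fun x hx => mem_dual.1 (hd.symm ▸ hx)
  refine le_antisymm (fun y hy => ?_) (fun x hx y hy => ?_)
  · have key : ∀ y' : W, (∀ n ∈ N, IsEv (γ n a) → IsInt (γ y' n)) → IsInt (γ y' v) → IsInt (γ y' a / 2) →
        y' ∈ N ∧ IsEv (γ y' a) := by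
      intro y' h1 h2 ⟨c, hc⟩
      refine ⟨hd ▸ fun n hn => ?_, c, by linarith⟩
      obtain ⟨m, hm⟩ := hi _ hn _ haN
      rcases Int.emod_two_eq_zero_or_one m with e | e
      · refine h1 n hn ⟨m / 2, ?_⟩
        rw [hm]; exact_mod_cast (by omega : m = 2 * (m / 2))
      · have := (h1 (n - v) (N.sub_mem hn hv) ⟨(m - 3) / 2, by
          rw [map_sub, LinearMap.sub_apply, hm, hva]
          exact_mod_cast (by omega : m - 3 = 2 * ((m - 3) / 2))⟩).add h2
        simpa using this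
    have h2v : IsInt (γ y ((2 : ℚ) • v)) := hy _ (mem_nbr_of ((IsInt.nat 2).smul_mem hv) ⟨3, by simp [hva]⟩)
    have hya : IsInt (γ y a / 2) := by
      have := hy _ half_mem_nbr
      rw [map_smul, smul_eq_mul] at this
      convert this using 1; ring
    obtain ⟨m, hm⟩ := h2v
    rw [map_smul, smul_eq_mul] at hm
    rcases Int.emod_two_eq_zero_or_one m with e | e
    · obtain ⟨h1, h2⟩ := key y (fun n hn hn' => hy n (mem_nbr_of hn hn')) ⟨m / 2, by
        have : (m : ℚ) = 2 * ((m / 2 : ℤ) : ℚ) := by exact_mod_cast (by omega : m = 2 * (m / 2))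
        linarith⟩ hya
      exact mem_nbr_of h1 h2
    · refine ⟨1, key _ (fun n hn ⟨c, hc⟩ => ?_) ⟨(m - 3) / 2, ?_⟩ ?_⟩
      · rw [map_sub, LinearMap.sub_apply]
        refine (hy n (mem_nbr_of hn ⟨c, hc⟩)).sub ⟨c, ?_⟩
        rw [map_smul, LinearMap.smul_apply, hγ.symm, hc, smul_eq_mul]; push_cast; ring
      · have : (m : ℚ) - 3 = 2 * (((m - 3) / 2 : ℤ) : ℚ) := by
          exact_mod_cast (by omega : m - 3 = 2 * ((m - 3) / 2))
        rw [map_sub, LinearMap.sub_apply, map_smul, LinearMap.smul_apply, hγ.symm a, hva, smul_eq_mul]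
        push_cast at this ⊢
        linarith
      · rw [map_sub, LinearMap.sub_apply, map_smul, LinearMap.smul_apply, ha, smul_eq_mul, sub_div]
        exact hya.sub ⟨4, by norm_num⟩
  · obtain ⟨i, hi⟩ := nbr_ev hγ he ha x hx
    obtain ⟨j, hj⟩ := nbr_ev hγ he ha y hy
    obtain ⟨k, hk⟩ := nbr_ev hγ he ha _ (AddSubgroup.add_mem _ hx hy)
    rw [hγ.norm_add, hi, hj] at hk
    exact ⟨k - i - j, by push_cast; linarith⟩

end nb

variable {G : Type u} [Group G] {V : Type} [AddCommGroup V] [Module ℚ V] {ρ : G →* Module.End ℚ V}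
  {β : LinearMap.BilinForm ℚ V} {σ : G} {L : AddSubgroup V} {u : V}

namespace Sh

theorem two_a (h : Sh ρ β σ L u 2) : (u, (3 / 2 : ℚ)) ∈ glue L u 2 := by
  convert AddSubgroup.add_mem _ (z_mem (L := L) (u := u) (d := 2)) h.v_mem using 1
  ext
  · simp
  · simp; norm_num

/-- A vector of the neighbour whose last coordinate is in `ℤ/2` lies in the glued lattice. -/
theorem two_star (h : Sh ρ β σ L u 2) {p : V × ℚ} (hp : p ∈ nbr (gform β 2) (glue L u 2) (u, 3 / 2)) {t : ℤ}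
    (ht : p.2 = t / 2) : p ∈ glue L u 2 := by
  obtain ⟨k, h1, -⟩ := hp
  obtain ⟨j, -, h3⟩ := id h1
  simp only [Prod.snd_sub, Prod.smul_snd, smul_eq_mul, ht] at h3
  have h4 : 2 * t - 3 * k = 2 * j := by
    have : (2 * t - 3 * k : ℚ) = 2 * j := by push_cast at h3; linarith
    exact_mod_cast this
  have h5 : IsInt ((k : ℚ) / 2) := ⟨k / 2, by
    have : (k : ℚ) = 2 * ((k / 2 : ℤ) : ℚ) := by exact_mod_cast (by omega : k = 2 * (k / 2))
    linarith⟩
  simpa using AddSubgroup.add_mem _ h1 (h5.smul_mem h.two_a)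

theorem two_rootless (h : Sh ρ β σ L u 2) (he : EvR β L) :
    ∀ p ∈ nbr (gform β 2) (glue L u 2) (u, 3 / 2), gform β 2 p p ≠ 2 := by
  intro p hp e
  obtain ⟨k, ⟨j, h1, h2⟩, m, hm⟩ := id hp
  simp only [Prod.fst_sub, Prod.smul_fst, Prod.snd_sub, Prod.smul_snd, smul_eq_mul] at h1 h2
  obtain ⟨b, hb⟩ := h.int_u h1
  have hn : β u u = 23 / 2 := by simpa using h.norm
  simp only [gform_apply, Prod.fst_sub, Prod.smul_fst, Prod.snd_sub, Prod.smul_snd, smul_eq_mul, h2] at hm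
  simp only [map_sub, map_smul, LinearMap.sub_apply, LinearMap.smul_apply, smul_eq_mul, hn] at hb hm
  push_cast at hm h2
  have hbm : b + 13 * j = 2 * m := by
    have : (b + 13 * j : ℚ) = 2 * m := by linarith
    exact_mod_cast this
  have hP : β p.1 u = ((4 * b + 23 * (2 * j + k) : ℤ) : ℚ) / 4 := by push_cast; linarith
  have hT : p.2 = ((2 * j + 3 * k : ℤ) : ℚ) / 4 := by push_cast; linarith
  have hmod : (4 * b + 23 * (2 * j + k) - 5 * (2 * j + 3 * k)) % 8 = 0 := by omega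
  generalize 4 * b + 23 * (2 * j + k) = P at hP hmod
  generalize 2 * j + 3 * k = T at hT hmod
  rw [gform_apply, hT] at e
  push_cast at e
  by_cases hmv : ρ σ p.1 = p.1
  · obtain ⟨c, hc⟩ := h.line _ hmv
    rw [hc] at e hP
    simp only [map_smul, LinearMap.smul_apply, smul_eq_mul, hn] at e hP
    have e1 : (P : ℚ) ^ 2 + 23 * T ^ 2 = 368 := by
      have : (P : ℚ) = 46 * c := by linarith
      rw [this]; linarith
    have e2 : P ^ 2 + 23 * T ^ 2 = 368 := by exact_mod_cast e1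
    have a1 : T < 5 := by nlinarith
    have a2 : -5 < T := by nlinarith
    have a3 : P < 20 := by nlinarith
    have a4 : -20 < P := by nlinarith
    have a5 : (23 : ℤ) ∣ P ^ 2 := ⟨16 - T ^ 2, by linarith⟩
    have a6 : (23 : ℤ) ∣ P := (Int.prime_iff_natAbs_prime.2 (by norm_num)).dvd_of_dvd_pow a5
    have a7 : P = 0 := by omega
    subst a7
    interval_cases T <;> omega
  · have hp1 : p.1 = (p.1 - ((k : ℚ) / 2) • u - (j : ℚ) • u) + ((k : ℚ) / 2 + j) • u := by rw [add_smul]; abel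
    have hl := h.low he h1 ((k : ℚ) / 2 + j) (by rw [← hp1]; exact hmv)
    rw [← hp1, hP] at hl
    push_cast at hl
    have a0 : (T : ℚ) ^ 2 < 1 := by nlinarith [sq_nonneg (P : ℚ)]
    have a1 : T ^ 2 < 1 := by exact_mod_cast a0
    have hT0 : T = 0 := by
      by_contra hn
      have := sq_pos_of_ne_zero hn
      omega
    subst hT0
    have h5 := h.two_star hp (t := 0) (by simpa using hT)
    have h6 : p = (p.1, 0) := Prod.ext rfl (by simpa using hT)
    rw [h6] at h5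
    exact he.rootless _ (h.mem_of_inl h5) (by simpa using e)

end Sh

theorem twoThm (hL : LeechThm) : TwoThm.{u} := by
  intro G _ V _ _ ρ β σ L u h he
  have hd := h.glue_dual (by norm_num)
  have hev := h.glue_ev he.ev (by norm_num)
  have hn : β u u = 23 / 2 := by simpa using h.norm
  have ha : gform β 2 (u, 3 / 2) (u, 3 / 2) = 16 := by rw [gform_apply, hn]; norm_num
  have hva : gform β 2 (0, 1) (u, 3 / 2) = 3 := by rw [gform_apply]; simp; norm_num
  obtain ⟨f, hf⟩ := hL (V × ℚ) (gform β 2) (nbr (gform β 2) (glue L u 2) (u, 3 / 2)) h.finrank_prod h.gform_pd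
    (nbr_lat h.glue_lat hd h.two_a) (nbr_dual h.gform_pd hd hev h.two_a ha h.v_mem hva)
    ⟨nbr_ev h.gform_pd hev ha, h.two_rootless he⟩
  have h2v : ((0 : V), (2 : ℚ)) ∈ nbr (gform β 2) (glue L u 2) (u, 3 / 2) :=
    mem_nbr_of (by simpa using (IsInt.nat 2).smul_mem h.v_mem) ⟨3, by rw [gform_apply]; simp; norm_num⟩
  have hsq : ∀ x : GolayPt → ℤ, sqNorm x = dotInt x x := fun x => by simp only [sqNorm, dotInt, sq]
  set x := f ⟨_, h2v⟩ with hx
  have hx64 : sqNorm (x : GolayPt → ℤ) = 64 := by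
    have := hf ⟨_, h2v⟩ ⟨_, h2v⟩
    rw [← hsq, gform_apply] at this
    simp only [map_zero, zero_add] at this
    have h3 : ((sqNorm (x : GolayPt → ℤ) : ℤ) : ℚ) = 64 := by rw [hx, this]; norm_num
    exact_mod_cast h3
  have hc := Cfsg.Agent.S1569.result x x.2 hx64
  obtain ⟨x', hx', hne⟩ : ∃ x' ∈ cross (x : GolayPt → ℤ),
      x' ∉ ({(x : GolayPt → ℤ), -(x : GolayPt → ℤ)} : Set (GolayPt → ℤ)) := by
    by_contra hcon
    push Not at hcon
    have h1 := Set.ncard_le_ncard hcon (Set.toFinite _)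
    have h2 := Set.ncard_insert_le (x : GolayPt → ℤ) {-(x : GolayPt → ℤ)}
    rw [Set.ncard_singleton] at h2
    omega
  simp only [Set.mem_insert_iff, Set.mem_singleton_iff, not_or] at hne
  obtain ⟨hx'L, hx'n, z, hz, hzz⟩ := hx'
  rw [hx64] at hx'n
  have hdot : dotInt (x : GolayPt → ℤ) x' = 0 := by
    rcases Cfsg.Agent.S5592.result x x' x.2 hx'L (fun e => hne.1 e.symm) hx64.le hx'n.le ⟨z, hz, hzz⟩ with e | e
    · exact absurd (by rw [e, neg_neg]) hne.2
    · exact e.2.2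
  obtain ⟨r, hr⟩ := f.surjective ⟨x', hx'L⟩
  obtain ⟨n, hn'⟩ := f.surjective ⟨z, hz⟩
  have e1 : (⟨_, h2v⟩ : nbr (gform β 2) (glue L u 2) (u, 3 / 2)) - r = 2 • n := by
    apply f.injective
    rw [map_sub, map_nsmul, hr, hn']
    exact Subtype.ext hzz
  have e2 := hf ⟨_, h2v⟩ r
  rw [← hx, hr, hdot, gform_apply] at e2
  have e3 := hf r r
  rw [hr, ← hsq, hx'n, gform_apply] at e3
  simp only [map_zero, LinearMap.zero_apply, zero_add] at e2
  push_cast at e2 e3
  have r2 : (r : V × ℚ).2 = 0 := by linarith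
  have e4 := congrArg Subtype.val e1
  simp only [AddSubgroup.coe_sub, AddSubgroup.coe_nsmul] at e4
  have n1 : (r : V × ℚ).1 = -((2 : ℚ) • (n : V × ℚ).1) := by
    have := congrArg Prod.fst e4
    simp only [Prod.fst_sub, Prod.smul_fst, zero_sub] at this
    rw [two_smul, ← two_nsmul, ← this, neg_neg]
  have n2 : (n : V × ℚ).2 = ((2 : ℤ) : ℚ) / 2 := by
    have := congrArg Prod.snd e4
    simp only [Prod.snd_sub, Prod.smul_snd, r2, nsmul_eq_mul] at this
    push_cast at this ⊢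
    linarith
  have h5 := AddSubgroup.sub_mem _ (h.two_star n.2 n2) h.v_mem
  have h6 : (n : V × ℚ) - (0, 1) = ((n : V × ℚ).1, 0) := Prod.ext (by simp) (by simp [n2])
  rw [h6] at h5
  apply he.rootless _ (h.mem_of_inl h5)
  rw [r2, n1] at e3
  simp only [map_neg, map_smul, LinearMap.neg_apply, LinearMap.smul_apply, smul_eq_mul] at e3
  linarith

end CL.F23
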